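import Cfsg.Agent.H78.Tensor23.Group

/-!
Hyperbolic bases of a three dimensional unitary space.
-/

set_option autoImplicit false
set_option linter.unusedSectionVars false

namespace Cfsg.Agent.H78.Tensor23

open Matrix H99.TensorU
open H99.Tensor hiding Good Over
open scoped Kronecker

variable {F : Type*} [Field F] [StarRing F] [Finite F] {α : Type} [Fintype α] [DecidableEq α]

/-- A hyperbolic pair and a vector orthogonal to it give a basis. -/
theorem basis3 {z z' e : Fin 3 → F} (hz : sp z z = 0) (hz' : sp z' z' = 0) (h1 : sp z z' = 1) (he0 : e ≠ 0)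
    (hze : sp z e = 0) (hz'e : sp z' e = 0) :
    sp e e ≠ 0 ∧ vecMulVec z (star z') + vecMulVec z' (star z) + (sp e e)⁻¹ • vecMulVec e (star e) = 1 := by
  have h2 : sp z' z = 1 := by rw [← sp_star z z', h1, star_one]
  have hez := sp_zero_comm.1 hze
  have hez' := sp_zero_comm.1 hz'e
  let f : (Fin 3 → F) →ₗ[F] F × F :=
    { toFun := fun x => (sp z x, sp z' x)
      map_add' := fun x y => by simp [sp_add_right]
      map_smul' := fun c x => by simp [sp_smul_right] }
  have hsurj : LinearMap.range f = ⊤ := by
    refine LinearMap.range_eq_top.2 fun p => ⟨p.1 • z' + p.2 • z, ?_⟩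
    simp [f, sp_add_right, sp_smul_right, hz, hz', h1, h2]
  have hk : Module.finrank F (LinearMap.ker f) = 1 := by
    have := LinearMap.finrank_range_add_finrank_ker f
    rw [hsurj, finrank_top, Module.finrank_prod, Module.finrank_self, Module.finrank_fintype_fun_eq_card,
      Fintype.card_fin] at this
    omega
  have hmem : ∀ v : Fin 3 → F, ∃ c : F, v - sp z' v • z - sp z v • z' = c • e := by
    intro v
    have hv : v - sp z' v • z - sp z v • z' ∈ LinearMap.ker f := by
      simp [f, sp_sub_right, sp_smul_right, hz, hz', h1, h2]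
    have he : e ∈ LinearMap.ker f := by simp [f, hze, hz'e]
    obtain ⟨c, hc⟩ := (finrank_eq_one_iff_of_nonzero' (⟨e, he⟩ : LinearMap.ker f) (by simpa using he0)).1 hk
      ⟨_, hv⟩
    exact ⟨c, (congrArg Subtype.val hc).symm⟩
  have hee : sp e e ≠ 0 := fun h0 => he0 (eq_zero_of_sp fun u => by
    obtain ⟨c, hc⟩ := hmem u
    have := congrArg (sp e) hc
    rw [sp_sub_right, sp_sub_right, sp_smul_right, sp_smul_right, sp_smul_right, hez, hez', h0] at this
    simp only [mul_zero, sub_zero] at this
    exact sp_zero_comm.1 this)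
  refine ⟨hee, Matrix.ext_of_mulVec_single fun k => ?_⟩
  set v : Fin 3 → F := Pi.single k 1
  obtain ⟨c, hc⟩ := hmem v
  have hev : c = sp e v / sp e e := by
    have := congrArg (sp e) hc
    rw [sp_sub_right, sp_sub_right, sp_smul_right, sp_smul_right, sp_smul_right, hez, hez'] at this
    rw [eq_div_iff hee]
    linear_combination -this
  rw [add_mulVec, add_mulVec, smul_mulVec, vmv_mulVec, vmv_mulVec, vmv_mulVec, one_mulVec, smul_smul,
    ← div_eq_inv_mul, ← hev]
  linear_combination (norm := module) -hc

/-- The resolution of the identity. -/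
theorem resolve {z z' e : Fin 3 → F} (hz : sp z z = 0) (hz' : sp z' z' = 0) (h1 : sp z z' = 1) (he0 : e ≠ 0)
    (hze : sp z e = 0) (hz'e : sp z' e = 0) :
    lft α z * rgt α (star z') + lft α z' * rgt α (star z) + (sp e e)⁻¹ • (lft α e * rgt α (star e)) =
      (1 : Matrix (α × Fin 3) (α × Fin 3) F) := by
  rw [lft_mul_rgt, lft_mul_rgt, lft_mul_rgt, ← kronecker_smul, ← kronecker_add, ← kronecker_add,
    (basis3 hz hz' h1 he0 hze hz'e).2, one_kronecker_one]

/-- A vector orthogonal to two given ones. -/
theorem exists_perp3 (z z' : Fin 3 → F) : ∃ e : Fin 3 → F, e ≠ 0 ∧ sp z e = 0 ∧ sp z' e = 0 :=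
  exists_common_zero (by simp) (star z) (star z')

end Cfsg.Agent.H78.Tensor23
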