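import Cfsg.Agent.H78.Tensor23.Singular

/-!
A singular contraction along isotropic vectors leads to a layer with a coefficient that is not scalar.
-/

set_option autoImplicit false
set_option linter.unusedSectionVars false

namespace Cfsg.Agent.H78.Tensor23

open Matrix H99.TensorU
open H99.Tensor hiding Good Over
open scoped Kronecker

variable {F : Type*} [Field F] [StarRing F] [Finite F]

local notation "I₆" => Fin 2 × Fin 3

omit [Finite F] in
theorem vmv_sandwich {m n : Type} [Fintype m] [Fintype n] (P : Matrix m n F) (u x : n → F) :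
    P * vecMulVec u (star x) * Pᴴ = vecMulVec (P *ᵥ u) (star (P *ᵥ x)) := by
  rw [Matrix.mul_vecMulVec, Matrix.vecMulVec_mul, ← Matrix.star_mulVec]

omit [Finite F] in
theorem rgt_star_conjTranspose (x : Fin 3 → F) (u : I₆ → F) :
    star u ᵥ* lft (Fin 2) x = star (rgt (Fin 2) (star x) *ᵥ u) := by
  rw [star_mulVec, rgt_conjTranspose]

omit [Finite F] in
/-- A matrix of rank at most one is an outer product. -/
theorem exists_outer {A : Matrix (Fin 2) (Fin 2) F} (h : A.det = 0) :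
    ∃ a b : Fin 2 → F, A = vecMulVec a (star b) := by
  rw [Matrix.det_fin_two] at h
  by_cases h00 : A 0 0 = 0
  · rw [h00, zero_mul, zero_sub, neg_eq_zero, mul_eq_zero] at h
    rcases h with h | h
    · refine ⟨![0, 1], fun j => star (A 1 j), ?_⟩
      ext i j
      fin_cases i <;> fin_cases j <;> simp [vecMulVec_apply, h00, h]
    · refine ⟨fun i => A i 1, ![0, 1], ?_⟩
      ext i j
      fin_cases i <;> fin_cases j <;> simp [vecMulVec_apply, h00, h]
  · refine ⟨fun i => A i 0 / A 0 0, fun j => star (A 0 j), ?_⟩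
    ext i j
    fin_cases i <;> fin_cases j <;> simp [vecMulVec_apply, h00]
    field_simp
    linear_combination h

variable {M : Subgroup (GL (Fin 2 × Fin 3) F)} (H : Over M)
include H

/-- Root elements move the partners of an isotropic vector transitively. -/
theorem Over.exists_move_partner {z x x' : Fin 3 → F} (hz : sp z z = 0) (hx : sp x x = 0) (hx' : sp x' x' = 0)
    (h : sp z x = 1) (h' : sp z x' = 1) :
    ∃ k : Matrix (Fin 3) (Fin 3) F, k *ᵥ z = z ∧ k *ᵥ x = x' ∧ InM M ((1 : Matrix (Fin 2) (Fin 2) F) ⊗ₖ k) := by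
  set Δ := x' - x with hΔ
  set c := sp x Δ with hc
  set η := Δ - c • z with hη
  have hzx : sp x z = 1 := by rw [← sp_star z x, h, star_one]
  have hzΔ : sp z Δ = 0 := by rw [hΔ, sp_sub_right, h, h', sub_self]
  have hΔz : sp Δ z = 0 := sp_zero_comm.1 hzΔ
  have hzη : sp z η = 0 := by rw [hη, sp_sub_right, sp_smul_right, hzΔ, hz, mul_zero, sub_zero]
  have hxη : sp x η = 0 := by rw [hη, sp_sub_right, sp_smul_right, hzx, ← hc, mul_one, sub_self]
  have hηx : sp η x = 0 := sp_zero_comm.1 hxη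
  have hcond : c + star c + sp η η = 0 := by
    have e : sp (x + Δ) (x + Δ) = 0 := by rw [hΔ, add_sub_cancel, hx']
    rw [sp_add_left, sp_add_right, sp_add_right, hx, ← sp_star x Δ, ← hc] at e
    simp only [hη, sp_sub_left, sp_sub_right, sp_smul_left, sp_smul_right, hzΔ, hΔz, hz]
    linear_combination e
  obtain ⟨hu, hd⟩ := root_unitary hz hzη hcond
  refine ⟨1 + nil z η c, ?_, ?_, H.right_factor _ hu hd⟩
  · simp only [nil, add_mulVec, sub_mulVec, one_mulVec, smul_mulVec, vmv_mulVec, hz, sp_zero_comm.1 hzη, zero_smul,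
      smul_zero, sub_zero, add_zero]
  · simp only [nil, add_mulVec, sub_mulVec, one_mulVec, smul_mulVec, vmv_mulVec, h, hηx, zero_smul, one_smul,
      sub_zero]
    rw [hη, hΔ]; abel

theorem Over.layer_conj {A B : Matrix (Fin 2) (Fin 2) F} {P Q : Matrix (Fin 3) (Fin 3) F}
    (h : InM M (1 + (A ⊗ₖ P + B ⊗ₖ Q))) {k : Matrix (Fin 3) (Fin 3) F}
    (hk : InM M ((1 : Matrix (Fin 2) (Fin 2) F) ⊗ₖ k)) :
    InM M (1 + (A ⊗ₖ (k * P * kᴴ) + B ⊗ₖ (k * Q * kᴴ))) := by
  have := H.conj h hk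
  rwa [Matrix.mul_add ((1 : Matrix (Fin 2) (Fin 2) F) ⊗ₖ k), Matrix.add_mul, kron_conjTranspose,
    ← mul_kronecker_mul, ← mul_kronecker_mul, ← mul_kronecker_mul, ← mul_kronecker_mul, conjTranspose_one,
    Matrix.one_mul, Matrix.mul_one, Matrix.one_mul, Matrix.mul_one] at this

variable (hgood : Good M)
include hgood

/-- The two layers cannot be separated. -/
theorem Over.no_diagonal (hr : ∃ r : F, star r = r ∧ r ≠ 0 ∧ r ≠ 1) {a a' : Fin 2 → F} (ha : sp a a ≠ 0)
    (ha' : a' ≠ 0) (haa : sp a a' = 0) {c c' : F} (hc : star c = -c) (hc' : star c' = -c') (hc'0 : c' ≠ 0)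
    {w z : Fin 3 → F} (hw0 : w ≠ 0) (hw : sp w w = 0) (hz : sp z z = 0) (hwz : sp w z = 1) :
    ¬ InM M (1 + ((c • vecMulVec a' (star a')) ⊗ₖ vecMulVec w (star w) +
      (c' • vecMulVec a (star a)) ⊗ₖ vecMulVec z (star z))) := by
  intro hV
  set A := c • vecMulVec a' (star a') with hA
  set B := c' • vecMulVec a (star a) with hB
  have hAB : A * B = 0 := by
    rw [hA, hB, Matrix.smul_mul, Matrix.mul_smul, vmv_mul, sp_zero_comm.1 haa, zero_smul, smul_zero, smul_zero]
  have hBA : B * A = 0 := by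
    rw [hA, hB, Matrix.smul_mul, Matrix.mul_smul, vmv_mul, haa, zero_smul, smul_zero, smul_zero]
  let Pr : (Fin 3 → F) → (Fin 3 → F) → Prop := fun x y =>
    InM M (1 + (A ⊗ₖ vecMulVec x (star x) + B ⊗ₖ vecMulVec y (star y)))
  have hP : ∀ x y, sp x x = 0 → sp y y = 0 → ∀ k, InM M ((1 : Matrix (Fin 2) (Fin 2) F) ⊗ₖ k) → Pr x y →
      Pr (k *ᵥ x) (k *ᵥ y) := by
    intro x y hx hy k hk h
    have := H.layer_conj h hk
    rwa [vmv_conj, vmv_conj] at this
  have hfst : ∀ x y y', sp x x = 0 → sp y y = 0 → sp y' y' = 0 → sp x y = 1 → sp x y' = 1 → Pr x y → Pr x y' := by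
    intro x y y' hx hy hy' h h' hp
    obtain ⟨k, k1, k2, hk⟩ := H.exists_move_partner hx hy hy' h h'
    have := hP x y hx hy k hk hp
    rwa [k1, k2] at this
  have hsnd : ∀ x x' y, sp x x = 0 → sp x' x' = 0 → sp y y = 0 → sp y x = 1 → sp y x' = 1 → Pr x y → Pr x' y := by
    intro x x' y hx hx' hy h h' hp
    obtain ⟨k, k1, k2, hk⟩ := H.exists_move_partner hy hx hx' h h'
    have := hP x y hx hy k hk hp
    rwa [k1, k2] at this
  have hdiff : ∀ x y₁ y₂, sp x x = 0 → sp y₁ y₁ = 0 → sp y₂ y₂ = 0 → Pr x y₁ → Pr x y₂ →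
      InM M ((1 + B ⊗ₖ vecMulVec y₁ (star y₁)) * (1 - B ⊗ₖ vecMulVec y₂ (star y₂))) := by
    intro x y₁ y₂ hx hy₁ hy₂ h₁ h₂
    set S := A ⊗ₖ vecMulVec x (star x) with hS
    set T₁ := B ⊗ₖ vecMulVec y₁ (star y₁) with hT₁
    set T₂ := B ⊗ₖ vecMulVec y₂ (star y₂) with hT₂
    have e1 : S * S = 0 := by rw [hS, ← mul_kronecker_mul, vmv_mul, hx, zero_smul, kronecker_zero]
    have e2 : T₂ * T₂ = 0 := by rw [hT₂, ← mul_kronecker_mul, vmv_mul, hy₂, zero_smul, kronecker_zero]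
    have e3 : S * T₂ = 0 := by rw [hS, hT₂, ← mul_kronecker_mul, hAB, zero_kronecker]
    have e4 : T₂ * S = 0 := by rw [hS, hT₂, ← mul_kronecker_mul, hBA, zero_kronecker]
    have e5 : T₁ * S = 0 := by rw [hS, hT₁, ← mul_kronecker_mul, hBA, zero_kronecker]
    have h := h₁.mul (InM.neg h₂ (by rw [Matrix.add_mul, Matrix.mul_add, Matrix.mul_add, e1, e2, e3, e4]; simp))
    have e : (1 + (S + T₁)) * (1 - (S + T₂)) = (1 + T₁) * (1 - T₂) - S * S - S * T₂ - T₁ * S := by noncomm_ring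
    rwa [e, e1, e3, e5, sub_zero, sub_zero, sub_zero] at h
  obtain ⟨d, hd0, hd⟩ := exists_skew H.ns
  obtain ⟨r, hr0, hr1⟩ := exists_norm_ne H.ns hr
  have hzw : sp z w = 1 := by rw [← sp_star w z, hwz, star_one]
  obtain ⟨e, he0, hwe, hze⟩ := exists_perp3 w z
  obtain ⟨hee, -⟩ := basis3 hw hz hwz he0 hwe hze
  set p := star ((r - 1) / d) with hp
  obtain ⟨σ, hσ⟩ := exists_norm H.ns (a := -(p + star p) / sp e e) (by
    rw [star_div₀, star_neg, star_add, star_star, sp_star, add_comm])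
  field_simp at hσ
  set y₂ := z + d • w with hy₂
  set x₂ := (star r)⁻¹ • (w + σ • e + p • z) with hx₂
  set y₃ := r • z with hy₃
  have hew := sp_zero_comm.1 hwe
  have hez := sp_zero_comm.1 hze
  have q1 : sp y₂ y₂ = 0 := by
    simp only [hy₂, sp_add_left, sp_add_right, sp_smul_left, sp_smul_right, hw, hz, hwz, hzw, hd]; ring
  have q2 : sp w y₂ = 1 := by simp only [hy₂, sp_add_right, sp_smul_right, hw, hwz]; ring
  have q3 : sp x₂ x₂ = 0 := by
    simp only [hx₂, sp_add_left, sp_add_right, sp_smul_left, sp_smul_right, hw, hz, hwz, hzw, hwe, hze, hew, hez]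
    linear_combination (star (star r)⁻¹ * (star r)⁻¹) * hσ
  have hpd : star p * d = r - 1 := by rw [hp, star_star, div_mul_cancel₀ _ hd0]
  have hrr : star (star r)⁻¹ = r⁻¹ := by rw [star_inv₀, star_star]
  have q4 : sp x₂ y₂ = 1 := by
    simp only [hx₂, hy₂, sp_add_left, sp_add_right, sp_smul_left, sp_smul_right, hw, hz, hwz, hzw, hew, hez, hrr]
    field_simp
    linear_combination hpd
  have q5 : sp y₃ y₃ = 0 := by simp only [hy₃, sp_smul_left, sp_smul_right, hz]; ring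
  have q6 : sp x₂ y₃ = 1 := by
    simp only [hx₂, hy₃, sp_add_left, sp_smul_left, sp_smul_right, hwz, hez, hz, hrr]
    field_simp
    ring
  have q4' : sp y₂ x₂ = 1 := by rw [← sp_star x₂ y₂, q4, star_one]
  have q2' : sp y₂ w = 1 := by rw [← sp_star w y₂, q2, star_one]
  have p1 : Pr w z := hV
  have p2 : Pr w y₂ := hfst w z y₂ hw hz q1 hwz q2 p1
  have p3 : Pr x₂ y₂ := hsnd w x₂ y₂ hw q3 q1 q2' q4' p2
  have p4 : Pr x₂ y₃ := hfst x₂ y₂ y₃ q3 q1 q5 q4 q6 p3
  have h13 := (hdiff w z y₂ hw hz q1 p1 p2).mul (hdiff x₂ y₂ y₃ q3 q1 q5 p3 p4)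
  set T₁ := B ⊗ₖ vecMulVec z (star z) with hT₁
  set T₂ := B ⊗ₖ vecMulVec y₂ (star y₂) with hT₂
  have e2 : T₂ * T₂ = 0 := by rw [hT₂, ← mul_kronecker_mul, vmv_mul, q1, zero_smul, kronecker_zero]
  have e13 : T₁ * T₁ = 0 := by rw [hT₁, ← mul_kronecker_mul, vmv_mul, hz, zero_smul, kronecker_zero]
  have eT₃ : B ⊗ₖ vecMulVec y₃ (star y₃) = (r * star r) • T₁ := by
    rw [hy₃, vmv_smul_left, vmv_smul_right, smul_smul, kronecker_smul]
  rw [eT₃] at h13
  have e : (1 + T₁) * (1 - T₂) * ((1 + T₂) * (1 - (r * star r) • T₁)) = 1 + ((1 - r * star r) • B) ⊗ₖ vecMulVec z (star z) := by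
    rw [Matrix.mul_assoc, ← Matrix.mul_assoc (1 - T₂), Matrix.sub_mul, Matrix.one_mul, Matrix.mul_add,
      Matrix.mul_one, e2, add_zero, add_sub_cancel_right, Matrix.one_mul, Matrix.add_mul, Matrix.one_mul,
      Matrix.mul_sub, Matrix.mul_one, Matrix.mul_smul, e13, smul_zero, sub_zero, smul_kronecker, ← hT₁, sub_smul,
      one_smul]
    abel
  rw [e] at h13
  have hz0 : z ≠ 0 := fun h => one_ne_zero (α := F) (by rw [← hwz, h, sp_zero_right])
  obtain ⟨t, ht⟩ := hgood z _ hz0 hz h13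
  have h1 := congrArg (fun G => sp a (G *ᵥ a)) ht
  have h2 := congrArg (fun G => sp a' (G *ᵥ a')) ht
  simp only [hB, smul_smul, smul_mulVec, vmv_mulVec, one_mulVec, sp_smul_right, haa, zero_smul, smul_zero,
    sp_zero_right] at h1 h2
  obtain ⟨hs', -⟩ := orth2 ha ha' haa
  have ht0 : t = 0 := by
    rcases mul_eq_zero.1 (show t * sp a' a' = 0 by linear_combination -h2) with h | h
    · exact h
    · exact absurd h hs'
  rw [ht0, zero_mul, mul_eq_zero, mul_eq_zero, mul_eq_zero] at h1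
  rcases h1 with ((h | h) | h) | h
  · exact hr1 (sub_eq_zero.1 h).symm
  · exact hc'0 h
  · exact ha h
  · exact ha h

/-- No singular contraction occurs. -/
theorem Over.no_singular (hr : ∃ r : F, star r = r ∧ r ≠ 0 ∧ r ≠ 1) {X : Matrix I₆ I₆ F} (hX : InM M X)
    (hnp : ¬ IsPure X) {w₁ z : Fin 3 → F} (hw₁0 : w₁ ≠ 0) (hw₁ : sp w₁ w₁ = 0) (hz0 : z ≠ 0) (hz : sp z z = 0) :
    (ct (Fin 2) X w₁ z).det ≠ 0 := by
  intro hdet
  obtain ⟨d, hd0, hd⟩ := exists_skew H.ns
  obtain ⟨a, bb, hA⟩ := exists_outer hdet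
  set w := w₁ with hwdef
  set A := ct (Fin 2) X w z with hAdef
  set U := 1 + X * (d • (lft (Fin 2) z * rgt (Fin 2) (star z))) * Xᴴ with hUdef
  have hU : InM M U := by
    have h1 := H.trans (α := Fin 2) hz hd
    rw [smul_kronecker, ← lft_mul_rgt] at h1
    exact H.conj h1 hX
  have hUnp : ¬ IsPure U := H.conj_trans_not_pure hgood hX hnp hz0 hz hd0
  have hct : ∀ (d : F) (X : Matrix I₆ I₆ F) (z x x' : Fin 3 → F),
      ct (Fin 2) (1 + X * (d • (lft (Fin 2) z * rgt (Fin 2) (star z))) * Xᴴ) x x' =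
      sp x x' • (1 : Matrix (Fin 2) (Fin 2) F) + d • (ct (Fin 2) X x z * (ct (Fin 2) X x' z)ᴴ) := by
    intro d X z x x'
    rw [ct_add, ct_one]
    congr 1
    rw [ct_conjTranspose, ct, ct, ct, Matrix.mul_smul, Matrix.smul_mul, Matrix.mul_smul, Matrix.smul_mul]
    simp only [Matrix.mul_assoc]
  have hUww : ct (Fin 2) U w w = (d * sp bb bb) • vecMulVec a (star a) := by
    rw [hUdef, hct, hw₁, zero_smul, zero_add, ← hAdef, hA, vmv_conjTranspose, vmv_mul, smul_smul]
  have hUne := H.ct_ne hgood rfl hU hUnp hw₁0 hw₁ hw₁0 hw₁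
  set V := 1 + U * (d • (lft (Fin 2) w * rgt (Fin 2) (star w))) * Uᴴ with hVdef
  have hV : InM M V := by
    have h1 := H.trans (α := Fin 2) hw₁ hd
    rw [smul_kronecker, ← lft_mul_rgt] at h1
    exact H.conj h1 hU
  have hVnp : ¬ IsPure V := H.conj_trans_not_pure hgood hU hUnp hw₁0 hw₁ hd0
  have hVne := H.ct_ne hgood rfl hV hVnp hw₁0 hw₁ hw₁0 hw₁
  set nb := sp bb bb with hnb
  have hnb0 : nb ≠ 0 := fun h => hUne (by rw [hUww, h, mul_zero, zero_smul])
  set na := sp a a with hna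
  have hna0 : na ≠ 0 := fun h => hVne (by
    rw [hVdef, hct, hw₁, zero_smul, zero_add, hUww, conjTranspose_smul, vmv_conjTranspose, Matrix.smul_mul,
      Matrix.mul_smul, vmv_mul, ← hna, h, zero_smul, smul_zero, smul_zero, smul_zero])
  have hnas : star na = na := sp_star a a
  have hnbs : star nb = nb := sp_star bb bb
  obtain ⟨a', ha'0, haa'⟩ : ∃ a' : Fin 2 → F, a' ≠ 0 ∧ sp a a' = 0 := by
    obtain ⟨S, hS, hSv⟩ := finrank_perp (ι := Fin 2) ![a]
    obtain ⟨y, hy, hy0⟩ := Submodule.exists_mem_ne_zero_of_ne_bot (p := S) fun h => by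
      rw [h, finrank_bot] at hS
      simp at hS
    exact ⟨y, hy0, hSv y hy 0⟩
  obtain ⟨hs'0, hres⟩ := orth2 hna0 ha'0 haa'
  have ha'a := sp_zero_comm.1 haa'
  set s' := sp a' a' with hs'def
  have hs's : star s' = s' := sp_star a' a'
  set Y := U * lft (Fin 2) w with hY
  have hY' : Yᴴ = rgt (Fin 2) (star w) * Uᴴ := by rw [hY, conjTranspose_mul, lft_conjTranspose]
  have hYY : Yᴴ * Y = 0 := by
    rw [hY', hY, Matrix.mul_assoc, ← Matrix.mul_assoc Uᴴ, H.unit' hU, Matrix.one_mul, rgt_mul_lft,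
      show star w ⬝ᵥ w = 0 from hw₁, zero_smul]
  set y := Y *ᵥ a' with hydef
  set u := Y *ᵥ a with hudef
  have hy : y = pv a' w := by
    rw [hydef, hY, hUdef, Matrix.add_mul, Matrix.one_mul, add_mulVec, lft_mulVec]
    have e : X * (d • (lft (Fin 2) z * rgt (Fin 2) (star z))) * Xᴴ * lft (Fin 2) w =
        (d • (X * lft (Fin 2) z)) * Aᴴ := by
      rw [hAdef, ct_conjTranspose, ct]
      simp only [Matrix.mul_smul, Matrix.smul_mul, Matrix.mul_assoc]
    rw [e, ← mulVec_mulVec, hA, vmv_conjTranspose, vmv_mulVec, haa', zero_smul, mulVec_zero, add_zero]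
  set ρ := d * nb * na with hρ
  have hρ0 : ρ ≠ 0 := mul_ne_zero (mul_ne_zero hd0 hnb0) hna0
  have hwu : rgt (Fin 2) (star w) *ᵥ u = ρ • a := by
    rw [hudef, hY, mulVec_mulVec, ← Matrix.mul_assoc, ← ct, hUww, smul_mulVec, vmv_mulVec, smul_smul]
  have huu : sp u u = 0 := by
    rw [hudef, sp, star_mulVec, ← dotProduct_mulVec, mulVec_mulVec, hYY, zero_mulVec, dotProduct_zero]
  set c := d / s' with hcdef
  set c₂ := d / na with hc₂def
  have hcs : star c = -c := by rw [hcdef, star_div₀, hd, hs's, neg_div]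
  have hc₂s : star c₂ = -c₂ := by rw [hc₂def, star_div₀, hd, hnas, neg_div]
  have hc₂0 : c₂ ≠ 0 := div_ne_zero hd0 hna0
  have hVeq : V = 1 + (c • vecMulVec y (star y) + c₂ • vecMulVec u (star u)) := by
    have e1 : U * (d • (lft (Fin 2) w * rgt (Fin 2) (star w))) * Uᴴ = d • (Y * Yᴴ) := by
      rw [hY', hY]
      simp only [Matrix.mul_smul, Matrix.smul_mul, Matrix.mul_assoc]
    have e2 : Y * Yᴴ = Y * ((sp a a)⁻¹ • vecMulVec a (star a) + s'⁻¹ • vecMulVec a' (star a')) * Yᴴ := by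
      rw [hres, Matrix.mul_one]
    rw [hVdef, e1, e2, Matrix.mul_add, Matrix.add_mul, Matrix.mul_smul, Matrix.mul_smul, Matrix.smul_mul,
      Matrix.smul_mul, vmv_sandwich, vmv_sandwich, ← hydef, ← hudef, ← hna, smul_add, smul_smul, smul_smul,
      ← div_eq_mul_inv, ← div_eq_mul_inv, add_comm (c • _)]
  -- the completion of the isotropic vector
  obtain ⟨w', hw', hww', hw'w⟩ := partner H.ns hw₁0 hw₁
  obtain ⟨e, he0, hwe, hw'e⟩ := exists_perp3 w w'
  obtain ⟨hee, -⟩ := basis3 hw₁ hw' hww' he0 hwe hw'e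
  have hew := sp_zero_comm.1 hwe
  set q₀ := rgt (Fin 2) (star e) *ᵥ u with hq₀
  set γ := sp a q₀ / na with hγ
  obtain ⟨τ₀, hτ₀⟩ := exists_norm H.ns (a := γ * star γ - sp q₀ q₀ / na) (by
    simp only [hγ, star_sub, star_mul', star_star, star_div₀, sp_star, hnas] <;> ring)
  set τ := τ₀ - γ with hτ
  set t := star (τ / ρ) with ht
  set et := e + t • w with het
  have hett : sp et et ≠ 0 := by
    simp only [het, sp_add_left, sp_add_right, sp_smul_left, sp_smul_right, hw₁, hwe, hew]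
    simpa using hee
  have hwet : sp w et = 0 := by simp only [het, sp_add_right, sp_smul_right, hw₁, hwe]; ring
  set q := rgt (Fin 2) (star et) *ᵥ u with hqdef
  have hq : q = q₀ + τ • a := by
    rw [hqdef, het, star_add, rgt_add, rgt_star_smul, add_mulVec, smul_mulVec, hwu, smul_smul, ht, star_star,
      div_mul_cancel₀ _ hρ0, ← hq₀]
  have hqq : sp q q = 0 := by
    have e1 : γ * na = sp a q₀ := div_mul_cancel₀ _ hna0
    have e2 : star γ * na = sp q₀ a := by
      have := congrArg star e1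
      rwa [star_mul', hnas, sp_star] at this
    have e3 : τ₀ * star τ₀ * na = γ * star γ * na - sp q₀ q₀ := by
      rw [hτ₀, sub_mul, div_mul_cancel₀ _ hna0]
    rw [hq, sp_add_left, sp_add_right, sp_add_right, sp_smul_left, sp_smul_left, sp_smul_right, sp_smul_right,
      ← hna, hτ, star_sub]
    linear_combination e3 - (star τ₀ - star γ) * e1 - (τ₀ - γ) * e2
  have hC : ct (Fin 2) V w et = (c₂ * ρ) • vecMulVec a (star q) := by
    rw [hVeq, ct_add, ct_one, hwet, zero_smul, zero_add, ct, Matrix.mul_add, Matrix.add_mul, Matrix.mul_smul,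
      Matrix.mul_smul, Matrix.smul_mul, Matrix.smul_mul, Matrix.mul_vecMulVec, Matrix.mul_vecMulVec,
      Matrix.vecMulVec_mul, Matrix.vecMulVec_mul, rgt_star_conjTranspose, rgt_star_conjTranspose, ← hqdef, hy,
      rgt_pv, hw₁, zero_smul, zero_vecMulVec, smul_zero, zero_add, hwu, vmv_smul_left, smul_smul]
  have hCC : ct (Fin 2) V w et * (ct (Fin 2) V w et)ᴴ = 0 := by
    rw [hC, conjTranspose_smul, vmv_conjTranspose, Matrix.smul_mul, Matrix.mul_smul, vmv_mul, hqq, zero_smul,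
      smul_zero, smul_zero]
  have hq0 : q = 0 := by
    rcases H.refl_or_layer hgood hr hV hVnp hw₁ hett with ⟨R, cR, hR, hRnp, hRww⟩ | ⟨f, L, -, hL, hVe⟩
    · exact absurd (by rw [hRww, hCC, smul_zero]) (H.ct_ne hgood rfl hR hRnp hw₁0 hw₁ hw₁0 hw₁)
    · have e1 : ct (Fin 2) V w et = sp w f • L := by
        rw [ct, Matrix.mul_assoc, hVe, ← Matrix.mul_assoc, rgt_mul_lft, Matrix.smul_mul, Matrix.one_mul]
        rfl
      have hwf : sp w f = 0 := by
        by_contra h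
        rw [e1, conjTranspose_smul, Matrix.smul_mul, Matrix.mul_smul, smul_smul, smul_eq_zero, mul_eq_zero,
          star_eq_zero, or_self] at hCC
        have := congrArg Matrix.det (hCC.resolve_left h)
        rw [det_mul, det_conjTranspose, det_zero] at this
        exact (hL.mul hL.star).ne_zero this
      rw [hwf, zero_smul, hC, smul_eq_zero] at e1
      have e2 := e1.resolve_left (mul_ne_zero hc₂0 hρ0)
      have e3 := congrArg (fun G => G *ᵥ q) e2
      by_contra hqne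
      obtain ⟨k, hk⟩ := Function.ne_iff.1 (show a ≠ 0 from fun h => hna0 (by rw [hna, h, sp_zero_left]))
      refine hqne (funext fun j => ?_)
      have := congrFun (congrFun e2 k) j
      simp only [vecMulVec_apply, Pi.star_apply, Matrix.zero_apply, mul_eq_zero, star_eq_zero] at this
      exact this.resolve_left hk
  -- the shape of the second vector
  set m := rgt (Fin 2) (star w') *ᵥ u with hm
  have hq₀' : q₀ = (-τ) • a := by
    rw [hq] at hq0
    rw [neg_smul]
    exact eq_neg_of_add_eq_zero_left hq0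
  set ε := sp a' m / s' with hε
  set z₀ := (sp a m / na) • w + ρ • w' + (-τ / sp e e) • e with hz₀
  have hu : u = ε • pv a' w + pv a z₀ := by
    have e1 : u = lft (Fin 2) w *ᵥ m + lft (Fin 2) w' *ᵥ (ρ • a) + (sp e e)⁻¹ • (lft (Fin 2) e *ᵥ q₀) := by
      conv_lhs => rw [← one_mulVec u, ← resolve (α := Fin 2) hw₁ hw' hww' he0 hwe hw'e]
      rw [add_mulVec, add_mulVec, smul_mulVec, ← mulVec_mulVec, ← mulVec_mulVec, ← mulVec_mulVec, ← hm, hwu,
        ← hq₀]
    have e2 : m = (sp a m / na) • a + ε • a' := by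
      conv_lhs => rw [← one_mulVec m, ← hres]
      rw [add_mulVec, smul_mulVec, smul_mulVec, vmv_mulVec, vmv_mulVec, smul_smul, smul_smul, ← div_eq_inv_mul,
        ← div_eq_inv_mul]
    rw [e1, hq₀', e2, lft_mulVec, lft_mulVec, lft_mulVec]
    funext ⟨i, k⟩
    simp only [pv, hz₀, hna, Pi.add_apply, Pi.smul_apply, smul_eq_mul]
    ring
  have hwz₀ : sp w z₀ = ρ := by
    simp only [hz₀, sp_add_right, sp_smul_right, hw₁, hww', hwe]; ring
  have hz₀z₀ : sp z₀ z₀ = 0 := by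
    have e1 := huu
    rw [hu] at e1
    simp only [sp_add_left, sp_add_right, sp_smul_left, sp_smul_right, sp_pv, hw₁, ha'a, haa', ← hna, mul_zero,
      zero_mul, zero_add] at e1
    exact (mul_eq_zero.1 e1).resolve_left hna0
  set z₁ := ρ⁻¹ • z₀ with hz₁
  have hwz₁ : sp w z₁ = 1 := by rw [hz₁, sp_smul_right, hwz₀, inv_mul_cancel₀ hρ0]
  have hz₁z₁ : sp z₁ z₁ = 0 := by rw [hz₁, sp_smul_left, sp_smul_right, hz₀z₀]; ring
  have hz₁w : sp z₁ w = 1 := by rw [← sp_star w z₁, hwz₁, star_one]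
  have hu' : u = ε • pv a' w + ρ • pv a z₁ := by
    rw [hu]
    congr 1
    funext ⟨i, k⟩
    simp only [pv, hz₁, Pi.smul_apply, smul_eq_mul]
    field_simp
  set p := pv a z₁ with hpdef
  set y₀ := pv a' w with hy₀def
  have hpp : sp p p = 0 := by rw [hpdef, sp_pv, hz₁z₁, mul_zero]
  have hyy : sp y₀ y₀ = 0 := by rw [hy₀def, sp_pv, hw₁, mul_zero]
  have hyp : sp y₀ p = 0 := by rw [hpdef, hy₀def, sp_pv, ha'a, zero_mul]
  have hpy : sp p y₀ = 0 := sp_zero_comm.1 hyp
  -- conjugation by the first factor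
  obtain ⟨μ, hμ, hμ2⟩ := exists_norm_one_sq H.ns
  have hμ0 : μ ≠ 0 := left_ne_zero_of_mul_eq_one hμ
  set ν := μ * μ with hν
  have hνν : ν * star ν = 1 := by
    rw [hν, star_mul', show μ * μ * (star μ * star μ) = (μ * star μ) * (μ * star μ) by ring, hμ, one_mul]
  set g : Matrix (Fin 2) (Fin 2) F := μ⁻¹ • (1 + ((ν - 1) / s') • vecMulVec a' (star a')) with hg
  have hga : g *ᵥ a = μ⁻¹ • a := by
    rw [hg, smul_mulVec, add_mulVec, one_mulVec, smul_mulVec, vmv_mulVec, ha'a, zero_smul, smul_zero, add_zero]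
  have hga' : g *ᵥ a' = (μ⁻¹ * ν) • a' := by
    rw [hg, smul_mulVec, add_mulVec, one_mulVec, smul_mulVec, vmv_mulVec, ← hs'def, smul_smul,
      div_mul_cancel₀ _ hs'0, mul_smul]
    module
  have hgu : g * gᴴ = 1 := by
    have e1 : μ⁻¹ * star μ⁻¹ = 1 := by rw [star_inv₀, ← mul_inv, hμ, inv_one]
    have e2 : (ν - 1) / s' + star ((ν - 1) / s') + (ν - 1) / s' * star ((ν - 1) / s') * s' = 0 := by
      rw [star_div₀, star_sub, star_one, hs's]
      field_simp
      linear_combination hνν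
    simp only [hg, conjTranspose_smul, conjTranspose_add, conjTranspose_one, vmv_conjTranspose, Matrix.smul_mul,
      Matrix.mul_smul, Matrix.add_mul, Matrix.mul_add, Matrix.one_mul, Matrix.mul_one, vmv_mul, smul_smul,
      ← hs'def, smul_add]
    match_scalars
    · linear_combination e1
    · simp only [star_mul']; linear_combination (μ⁻¹ * star μ⁻¹) * e2
  have hgd : g.det = 1 := by
    rw [hg, det_smul, Fintype.card_fin, vecMulVec_eq Unit, ← Matrix.smul_mul, ← replicateCol_smul,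
      det_one_add_replicateCol_mul_replicateRow, dotProduct_smul, smul_eq_mul]
    change μ⁻¹ ^ 2 * (1 + (ν - 1) / s' * s') = 1
    rw [div_mul_cancel₀ _ hs'0, hν]
    field_simp
    ring
  set G := g ⊗ₖ (1 : Matrix (Fin 3) (Fin 3) F) with hG
  have hGM : InM M G := H.left_factor g hgu hgd
  have hGpv : ∀ (x : Fin 2 → F) (v : Fin 3 → F), G *ᵥ pv x v = pv (g *ᵥ x) v := by
    intro x v
    rw [hG, ← lft_mulVec, ← lft_mulVec, mulVec_mulVec, kron_lft, one_mulVec, ← mulVec_mulVec]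
  have hGy : G *ᵥ y₀ = (μ⁻¹ * ν) • y₀ := by
    rw [hy₀def, hGpv, hga']
    funext ⟨i, k⟩
    simp only [pv, Pi.smul_apply, smul_eq_mul]; ring
  have hGp : G *ᵥ p = μ⁻¹ • p := by
    rw [hpdef, hGpv, hga]
    funext ⟨i, k⟩
    simp only [pv, Pi.smul_apply, smul_eq_mul]; ring
  rw [hy, hu'] at hVeq
  set W := c • vecMulVec y₀ (star y₀) + c₂ • vecMulVec (ε • y₀ + ρ • p) (star (ε • y₀ + ρ • p)) with hW
  have hW2 : W * W = 0 := by
    simp only [hW, vmv_add_left, vmv_add_right, vmv_smul_left, vmv_smul_right, Matrix.mul_add, Matrix.add_mul,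
      Matrix.smul_mul, Matrix.mul_smul, smul_add, vmv_mul, hpp, hyy, hyp, hpy, zero_smul, smul_zero, add_zero]
  rw [hVeq] at hV
  have hO := (H.conj hV hGM).mul (hV.neg hW2)
  have hμs : star μ⁻¹ = μ := by rw [star_inv₀, inv_eq_of_mul_eq_one_left hμ]
  set δ := c₂ * ε * star ρ * (ν - 1) with hδ
  set δ' := c₂ * ρ * star ε * (star ν - 1) with hδ'
  set D := δ • vecMulVec y₀ (star p) + δ' • vecMulVec p (star y₀) with hD
  have hWG : G * W * Gᴴ = W + D := by
    simp only [hW, hD, hδ, hδ', vmv_add_left, vmv_add_right, vmv_smul_left, vmv_smul_right, Matrix.mul_add,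
      Matrix.add_mul, Matrix.smul_mul, Matrix.mul_smul, smul_add, vmv_conj, hGy, hGp, star_mul', hμs]
    match_scalars
    · linear_combination (c + c₂ * (ε * star ε)) * (μ⁻¹ * μ) * hνν + (c + c₂ * (ε * star ε)) * inv_mul_cancel₀ hμ0
    · linear_combination (c₂ * star ε * ρ * star ν) * inv_mul_cancel₀ hμ0
    · linear_combination (c₂ * ε * star ρ * ν) * inv_mul_cancel₀ hμ0
    · linear_combination (c₂ * ρ * star ρ) * inv_mul_cancel₀ hμ0
  have hOeq : (1 + G * W * Gᴴ) * (1 - W) = 1 + D := by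
    have e : D * W = 0 := by
      simp only [hD, hW, vmv_add_left, vmv_add_right, vmv_smul_left, vmv_smul_right, Matrix.mul_add, Matrix.add_mul,
        Matrix.smul_mul, Matrix.mul_smul, smul_add, vmv_mul, hpp, hyy, hyp, hpy, zero_smul, smul_zero, add_zero]
    rw [hWG, Matrix.mul_sub, Matrix.mul_one, Matrix.add_mul, Matrix.one_mul, Matrix.add_mul, hW2, e]
    abel
  rw [hOeq] at hO
  set K := δ • vecMulVec a' (star a) with hK
  have hD' : D = K ⊗ₖ vecMulVec w (star z₁) + (δ' • vecMulVec a (star a')) ⊗ₖ vecMulVec z₁ (star w) := by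
    rw [hD, hK, hy₀def, hpdef, ← kron_vmv, ← kron_vmv, smul_kronecker, smul_kronecker]
  have hOw : (1 + D) * lft (Fin 2) w = lft (Fin 2) w * (1 + K) := by
    rw [hD', Matrix.add_mul, Matrix.add_mul, Matrix.one_mul, kron_lft, kron_lft, vmv_mulVec, vmv_mulVec, hz₁w,
      hw₁, one_smul, zero_smul, lft_zero, Matrix.zero_mul, add_zero, Matrix.mul_add, Matrix.mul_one]
  obtain ⟨e₁, he₁0, hwe₁, hze₁⟩ := exists_perp3 w z₁
  have hOe : (1 + D) * lft (Fin 2) e₁ = lft (Fin 2) e₁ := by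
    rw [hD', Matrix.add_mul, Matrix.add_mul, Matrix.one_mul, kron_lft, kron_lft, vmv_mulVec, vmv_mulVec, hze₁,
      hwe₁]
    simp only [zero_smul, lft_zero, Matrix.zero_mul, add_zero]
  have hKd : IsUnit (1 + K).det := by
    rw [hK, vecMulVec_eq Unit, ← Matrix.smul_mul, ← replicateCol_smul, det_one_add_replicateCol_mul_replicateRow,
      dotProduct_smul, show star a ⬝ᵥ a' = 0 from haa', smul_zero, add_zero]
    exact isUnit_one
  obtain ⟨gg, kk, hgk⟩ := H.pure_of_layer hgood rfl hw₁0 hw₁ hw₁0 hw₁ hO hOw hKd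
  rw [hgk, kron_lft] at hOw hOe
  obtain ⟨η, hη⟩ := exists_dual he₁0
  obtain ⟨η', hη'⟩ := exists_dual hw₁0
  have f1 := congrArg (rgt (Fin 2) η * ·) hOe
  simp only [← Matrix.mul_assoc, rgt_mul_lft, hη, one_smul, Matrix.smul_mul, Matrix.one_mul] at f1
  have f2 := congrArg (rgt (Fin 2) η' * ·) hOw
  simp only [← Matrix.mul_assoc, rgt_mul_lft, hη', one_smul, Matrix.smul_mul, Matrix.one_mul] at f2
  set l₁ := η ⬝ᵥ (kk *ᵥ e₁) with hl₁
  set l₂ := η' ⬝ᵥ (kk *ᵥ w) with hl₂
  have hl₁0 : l₁ ≠ 0 := fun h => by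
    rw [h, zero_smul] at f1
    exact zero_ne_one f1
  have hgg : gg = l₁⁻¹ • (1 : Matrix (Fin 2) (Fin 2) F) := by
    rw [← f1, smul_smul, inv_mul_cancel₀ hl₁0, one_smul]
  rw [hgg, smul_smul, hK] at f2
  have hδ0 : δ = 0 := by
    have f3 := congrArg (fun G => sp a' (G *ᵥ a)) f2
    simp only [add_mulVec, smul_mulVec, one_mulVec, vmv_mulVec, sp_add_right, sp_smul_right, ha'a, mul_zero,
      zero_add, ← hna, ← hs'def] at f3
    rcases mul_eq_zero.1 f3.symm with h | h
    · exact h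
    · exact absurd h (mul_ne_zero hna0 hs'0)
  have hε0 : ε = 0 := by
    rw [hδ, mul_eq_zero, mul_eq_zero, mul_eq_zero] at hδ0
    rcases hδ0 with ((h | h) | h) | h
    · exact absurd h hc₂0
    · exact h
    · exact absurd h (star_ne_zero.2 hρ0)
    · exact absurd (sub_eq_zero.1 h) hμ2
  refine H.no_diagonal hgood hr hna0 ha'0 haa' hcs (c' := c₂ * (ρ * star ρ))
    (by rw [star_mul', star_mul', star_star, hc₂s]; ring) (mul_ne_zero hc₂0 (mul_ne_zero hρ0 (star_ne_zero.2 hρ0)))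
    hw₁0 hw₁ hz₁z₁ hwz₁ ?_
  convert hV using 2
  rw [hW, hε0, hy₀def, hpdef, zero_smul, zero_add, vmv_smul_left ρ, vmv_smul_right ρ, ← kron_vmv, ← kron_vmv,
    smul_kronecker, smul_kronecker, smul_smul, smul_smul, mul_assoc c₂ ρ]

/-- All elements are pure tensors when the layers are scalar. -/
theorem Over.all_pure (hr : ∃ r : F, star r = r ∧ r ≠ 0 ∧ r ≠ 1) (y : GL I₆ F) (hy : y ∈ M) :
    IsPure (y : Matrix I₆ I₆ F) := by
  by_contra hnp
  obtain ⟨Y, u, v, hY, hYnp, hu0, hu, hv0, hv, hdet⟩ := H.exists_singular hgood hr ⟨y, hy, rfl⟩ hnp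
  exact H.no_singular hgood hr hY hYnp hu0 hu hv0 hv hdet

end Cfsg.Agent.H78.Tensor23
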