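import Cfsg.Agent.H78.Tensor23.Layer
import Cfsg.Agent.H78.Tensor23.Basic
import Cfsg.Agent.H99.TensorU.Purity

/-!
A layer with a coefficient that is not scalar gives all transvections, second factor of dimension three.
-/

set_option autoImplicit false
set_option linter.unusedSectionVars false

namespace Cfsg.Agent.H78.Tensor23

open Matrix H99.TensorU
open H99.Tensor hiding Good Over
open scoped Kronecker

variable {F : Type*} [Field F] [StarRing F] [Finite F] {α : Type} [Fintype α] [DecidableEq α] {b : ℕ}

local notation "Ix" => α × Fin b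

variable {M : Subgroup (GL (α × Fin b) F)} (H : Over M)
include H

theorem Over.centre_mulVec {v : Ix → F} (hv : Centre M v) {Y : Matrix Ix Ix F} (hY : InM M Y) :
    Centre M (Y *ᵥ v) := fun d hd => by
  have := H.conj (hv d hd) hY
  rwa [Matrix.mul_smul, Matrix.smul_mul, vmv_conj] at this

/-- All isotropic transvections of the first factor occur. -/
theorem Over.inLay_trans {v : α → F} {d : F} (hv0 : v ≠ 0) (hv : sp v v = 0) (hd0 : d ≠ 0) (hd : star d = -d)
    (h : InLay M (d • vecMulVec v (star v))) (hα : 2 ≤ Fintype.card α) :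
    ∀ (v' : α → F) (d' : F), sp v' v' = 0 → star d' = -d' → InLay M (d' • vecMulVec v' (star v')) := by
  have step : ∀ u u' : α → F, sp u u = 0 → sp u' u' = 0 → sp u' u ≠ 0 →
      InLay M (d • vecMulVec u (star u)) → InLay M (d • vecMulVec u' (star u')) := by
    intro u u' hu hu' huu hl
    obtain ⟨k, hk, hkd, hka⟩ := exists_move hu hu' huu hd0 hd
    have h1 := H.inLay_conj hl hk hkd
    rw [Matrix.mul_smul, Matrix.smul_mul, vmv_conj, hka, vmv_smul_left, vmv_smul_right] at h1
    have hμ : d * sp u' u ≠ 0 := mul_ne_zero hd0 huu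
    have := H.inLay_fixed h1 (r := ((d * sp u' u) * star (d * sp u' u))⁻¹)
      (by rw [star_inv₀, star_mul', star_star, mul_comm])
    convert this using 1
    rw [smul_smul, smul_smul, smul_smul]
    congr 1
    have := star_ne_zero.2 hμ
    field_simp
  intro v' d' hv' hd'
  have h1 : InLay M (d • vecMulVec v' (star v')) := by
    rcases eq_or_ne v' 0 with rfl | hv'0
    · rw [zero_vecMulVec, smul_zero]
      intro w hw
      rw [zero_kronecker, add_zero]
      exact InM.one
    obtain ⟨u, huu, hvu, hv'u⟩ := exists_iso_not_perp₂ H.ns hα hv0 hv'0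
    exact step u v' huu hv' hv'u (step v u hv huu (fun e => hvu (sp_zero_comm.1 e)) h)
  have := H.inLay_fixed h1 (r := d' / d) (by rw [star_div₀, hd, hd', neg_div_neg_eq])
  rwa [smul_smul, div_mul_cancel₀ _ hd0] at this

/-- The root elements with a rank one coefficient. -/
theorem Over.el_iso {v : α → F} (hv : sp v v = 0)
    (hlay : ∀ d : F, star d = -d → InLay M (d • vecMulVec v (star v))) {z z' η : Fin b → F} (hz : sp z z = 0)
    (hz' : sp z' z' = 0) (hzη : sp z η = 0) (hz'η : sp z' η = 0) (h1 : sp z z' = 1) (τ : F) :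
    InM M (el z (lft α η * (τ • vecMulVec v (star v))) 0) := by
  obtain ⟨d, hd0, hd⟩ := exists_skew H.ns
  set V := vecMulVec v (star v) with hV
  have hVV : V * V = 0 := by rw [hV, vmv_mul, hv, zero_smul]
  have hadd : ∀ P Q : Matrix (Fin b) (Fin b) F, InM M (1 + V ⊗ₖ P) → InM M (1 + V ⊗ₖ Q) →
      InM M (1 + V ⊗ₖ (P + Q)) := by
    intro P Q hP hQ
    have := hP.mul hQ
    rwa [Matrix.add_mul, Matrix.one_mul, Matrix.mul_add, Matrix.mul_one, ← mul_kronecker_mul, hVV, zero_kronecker,
      add_zero, add_assoc, add_comm (V ⊗ₖ Q), ← kronecker_add] at this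
  have hx : ∀ (x : Fin b → F) (e : F), sp x x = 0 → star e = -e →
      InM M (1 + V ⊗ₖ (e • vecMulVec x (star x))) := by
    intro x e hx he
    have := hlay e he x hx
    rwa [smul_kronecker, ← kronecker_smul] at this
  set s := sp η η with hs
  set l := -τ / (d * d) with hl
  have hηz := sp_zero_comm.1 hzη
  have hηz' := sp_zero_comm.1 hz'η
  have h2 : sp z' z = 1 := by rw [← sp_star z z', h1, star_one]
  obtain ⟨c, hc⟩ := exists_trace H.ns (a := -(l * star l * s)) (by
    rw [hs, star_neg, star_mul', star_mul', star_star, sp_star]; ring)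
  have hiso : ∀ a m : F, a + star a + m * star m * s = 0 →
      sp (a • z + m • η + z') (a • z + m • η + z') = 0 := by
    intro a m h
    simp only [sp_add_left, sp_add_right, sp_smul_left, sp_smul_right, hz, hz', hzη, hz'η, hηz, hηz', h1, h2, ← hs]
    linear_combination h
  have e1 := hx _ d (hiso (c + d) l (by rw [star_add, hd]; linear_combination hc)) hd
  have e2 := hx _ (-d) (hiso c l (by linear_combination hc)) (by rw [star_neg, hd])
  have e3 := hx _ (-d) (hiso d 0 (by rw [hd]; ring)) (by rw [star_neg, hd])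
  have e4 := hx _ d hz' hd
  set k := (c + d) * star (c + d) - c * star c - d * star d with hk
  have e5 := hx z (-(d * k)) hz (by
    rw [hk, star_neg, star_mul', star_sub, star_sub, star_mul', star_mul', star_mul', star_star, star_star, star_star,
      hd]
    ring)
  have := hadd _ _ (hadd _ _ (hadd _ _ (hadd _ _ e1 e2) e3) e4) e5
  have hA : (lft α η * (τ • V))ᴴ = (star τ • V) * rgt α (star η) := by
    rw [conjTranspose_mul, conjTranspose_smul, lft_conjTranspose, hV, vmv_conjTranspose]
  rw [el, hA, ← Matrix.mul_assoc, lft_mid_rgt, lft_mid_rgt, Matrix.mul_zero, Matrix.zero_mul, add_zero,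
    smul_kronecker, smul_kronecker, ← kronecker_smul, ← kronecker_smul]
  have e : (1 : Matrix Ix Ix F) + V ⊗ₖ (τ • vecMulVec η (star z)) - V ⊗ₖ (star τ • vecMulVec z (star η)) =
      1 + V ⊗ₖ (τ • vecMulVec η (star z) - star τ • vecMulVec z (star η)) := by
    rw [sub_eq_add_neg (τ • vecMulVec η (star z)), kronecker_add, ← neg_one_smul F (star τ • vecMulVec z (star η)),
      kronecker_smul (-1 : F), neg_one_smul]
    abel
  rw [e]
  refine (congrArg (fun P => InM M (1 + V ⊗ₖ P)) ?_).mpr this
  have hτ : l * (d * d) = -τ := div_mul_cancel₀ _ (mul_ne_zero hd0 hd0)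
  have hτ' : star l * (d * d) = -star τ := by
    have := congrArg star hτ
    rw [star_mul', star_mul', hd, star_neg] at this
    linear_combination this
  rw [hk]
  simp only [vmv_add_left, vmv_add_right, vmv_smul_left, vmv_smul_right]
  match_scalars
  all_goals simp only [star_add, star_zero, hd] at *
  all_goals first
    | ring1
    | linear_combination hτ
    | linear_combination -hτ
    | linear_combination hτ'
    | linear_combination -hτ'

/-- All rank one skew coefficients occur. -/
theorem Over.inLay_all (hb : b = 3) (hq : (∃ r : F, star r = r ∧ r ≠ 0 ∧ r ≠ 1) ∨ 3 ≤ Fintype.card α)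
    (hα : 2 ≤ Fintype.card α) (hbad : ¬ Good M) (x : α → F) (d : F) (hd : star d = -d) :
    InLay M (d • vecMulVec x (star x)) := by
  obtain ⟨v₀, d₀, hv₀0, hv₀, hd₀0, hd₀, hlay⟩ := H.exists_trans hq hbad
  have hall := H.inLay_trans hv₀0 hv₀ hd₀0 hd₀ hlay hα
  have hzero : InLay M (0 : Matrix α α F) := fun w hw => by
    rw [zero_kronecker, add_zero]; exact InM.one
  rcases eq_or_ne x 0 with rfl | hx0
  · rw [zero_vecMulVec, smul_zero]; exact hzero
  by_cases hxx : sp x x = 0
  · exact hall x d hxx hd
  obtain ⟨v, hv, hxv⟩ := exists_iso_not_perp H.ns hα hx0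
  obtain ⟨s, hs⟩ := exists_trace H.ns (a := -(sp x x)) (by rw [star_neg, sp_star])
  set ρ := s / sp x v with hρ
  set v' := x + ρ • v with hv'def
  have hv' : sp v' v' = 0 := by
    rw [hv'def, sp_add_left, sp_add_right, sp_add_right, sp_smul_left, sp_smul_left, sp_smul_right, sp_smul_right, hv]
    have h1 : ρ * sp x v = s := div_mul_cancel₀ _ hxv
    have h2 : star ρ * sp v x = star s := by rw [← sp_star x v, ← star_mul', h1]
    linear_combination hs + h1 + h2
  set κ := sp v v' with hκdef
  have hκ : κ = sp v x := by rw [hκdef, hv'def, sp_add_right, sp_smul_right, hv]; ring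
  have hκ0 : κ ≠ 0 := fun h => hxv (sp_zero_comm.1 (hκ ▸ h))
  have hκ' : sp v' v = star κ := by rw [hκdef, sp_star]
  have hcross : ∀ σ : F, InLay M (σ • vecMulVec v (star v') - star σ • vecMulVec v' (star v)) := by
    intro σ
    rcases eq_or_ne σ 0 with rfl | hσ
    · simpa using hzero
    subst hb
    obtain ⟨z, hz0, hz⟩ := H.exists_iso
    obtain ⟨z', hz', h1, -⟩ := partner H.ns hz0 hz
    obtain ⟨η, hη0, hzη, hz'η⟩ := exists_perp3 z z'
    obtain ⟨hs, -⟩ := basis3 hz hz' h1 hη0 hzη hz'η
    set s := sp η η with hsdef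
    set τ := star (-σ / (s * κ)) with hτ
    have hA := H.el_iso hv (fun e he => hall v e hv he) hz hz' hzη hz'η h1 τ
    have hA' := H.el_iso hv' (fun e he => hall v' e hv' he) hz hz' hzη hz'η h1 1
    rw [one_smul] at hA'
    set A := lft α η * (τ • vecMulVec v (star v)) with hAdef
    set A' := lft α η * vecMulVec v' (star v') with hA'def
    have hzl : rgt α (star z) * lft α η = 0 := by
      rw [rgt_mul_lft]; exact (congrArg (· • _) hzη).trans (zero_smul _ _)
    have a1 : rgt α (star z) * A = 0 := by rw [hAdef, ← Matrix.mul_assoc, hzl, Matrix.zero_mul]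
    have a2 : rgt α (star z) * A' = 0 := by rw [hA'def, ← Matrix.mul_assoc, hzl, Matrix.zero_mul]
    have hP := hA.mul hA'
    have hQ := hA'.mul hA
    rw [el_mul hz 0 0 a1 a2] at hP
    rw [el_mul hz 0 0 a2 a1, add_comm A' A, add_zero, zero_sub] at hQ
    rw [add_zero, zero_sub] at hP
    have hfac : el z (A + A') (-(Aᴴ * A')) = el z 0 (A'ᴴ * A - Aᴴ * A') * el z (A + A') (-(A'ᴴ * A)) := by
      rw [el_mul hz _ _ (Matrix.mul_zero _) (by rw [Matrix.mul_add, a1, a2, add_zero]), zero_add,
        conjTranspose_zero, Matrix.zero_mul, sub_zero]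
      congr 1
      abel
    have hD := hP.mul (H.inv hQ)
    rw [hfac, Matrix.mul_assoc, H.unit hQ, Matrix.mul_one, el_scalar] at hD
    have := H.inLay_of hz0 hz hD
    convert this using 1
    have hAA : (lft α η)ᴴ * lft α η = s • (1 : Matrix α α F) := by rw [lft_conjTranspose, rgt_mul_lft]; rfl
    have q1 : ∀ P Q : Matrix α α F, (lft α η * P)ᴴ * (lft α η * Q) = s • (Pᴴ * Q) := by
      intro P Q
      rw [conjTranspose_mul, Matrix.mul_assoc, ← Matrix.mul_assoc (lft α η)ᴴ, hAA, Matrix.smul_mul, Matrix.one_mul,
        Matrix.mul_smul]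
    rw [hAdef, hA'def, q1, q1]
    simp only [conjTranspose_smul, vmv_conjTranspose, Matrix.smul_mul, Matrix.mul_smul, vmv_mul, smul_smul]
    rw [hκ', ← hκdef, hτ, star_star]
    have hss : star s = s := sp_star η η
    have := star_ne_zero.2 hκ0
    rw [star_div₀, star_neg, star_mul', hss]
    match_scalars <;> field_simp
  have hx : x = v' + (-ρ) • v := by rw [hv'def]; module
  have h1 := H.inLay_add (H.inLay_add (hall v' d hv' hd)
    (H.inLay_fixed (hall v d hv hd) (r := ρ * star ρ) (by rw [star_mul', star_star, mul_comm])))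
    (hcross (-(d * ρ)))
  convert h1 using 1
  conv_lhs => rw [hx]
  simp only [vmv_add_left, vmv_add_right, vmv_smul_left, vmv_smul_right, star_neg, star_mul', hd]
  module

theorem Over.centre_pv (hb : b = 3) (hq : (∃ r : F, star r = r ∧ r ≠ 0 ∧ r ≠ 1) ∨ 3 ≤ Fintype.card α)
    (hα : 2 ≤ Fintype.card α) (hbad : ¬ Good M) (x : α → F) {w : Fin b → F} (hw : sp w w = 0) :
    Centre M (pv x w) := fun d hd => by
  have := H.inLay_all hb hq hα hbad x d hd w hw
  rwa [smul_kronecker, kron_vmv] at this

/-- A layer with a coefficient that is not scalar gives all transvections. -/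
theorem Over.centre_all (hb : b = 3) (hq : (∃ r : F, star r = r ∧ r ≠ 0 ∧ r ≠ 1) ∨ 3 ≤ Fintype.card α)
    (hα : 2 ≤ Fintype.card α) (hbad : ¬ Good M) (v : Ix → F) (hv : sp v v = 0) : Centre M v := by
  classical
  let lay : (Ix → F) → α → Fin b → F := fun v i k => v (i, k)
  let supp : (Ix → F) → Finset α := fun v => Finset.univ.filter fun i => lay v i ≠ 0
  obtain ⟨d, hd0, hd⟩ := exists_skew H.ns
  -- the basic move
  have move : ∀ (v : Ix → F) (i j : α) (w : Fin b → F) (μ : F), sp v v = 0 → i ≠ j → sp w w = 0 →
      sp w (lay v j) ≠ 0 → ∃ v' : Ix → F, sp v' v' = 0 ∧ (Centre M v' → Centre M v) ∧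
        lay v' i = lay v i + μ • w ∧ ∀ l, l ≠ i → l ≠ j → lay v' l = lay v l := by
    intro v i j w μ hv hij hw hj
    have hd' : d ≠ 0 := hd0
    set l₀ := star ((μ / d - sp w (lay v i)) / sp w (lay v j)) with hl₀
    set x : α → F := Pi.single i 1 + l₀ • Pi.single j 1 with hx
    have hxv : d * sp (pv x w) v = μ := by
      rw [sp_pv_left, Finset.sum_eq_add i j hij
        (fun l _ hl => by simp [hx, Pi.single_eq_of_ne hl.1, Pi.single_eq_of_ne hl.2]) (by simp) (by simp)]
      simp only [hx, Pi.add_apply, Pi.smul_apply, Pi.single_eq_same, Pi.single_eq_of_ne hij,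
        Pi.single_eq_of_ne hij.symm, smul_eq_mul, mul_zero, mul_one, add_zero, zero_add, star_one, one_mul, hl₀,
        star_star]
      change d * (sp w (lay v i) + (μ / d - sp w (lay v i)) / sp w (lay v j) * sp w (lay v j)) = μ
      rw [div_mul_cancel₀ _ hj]
      field_simp
      ring
    have hT := H.centre_pv hb hq hα hbad x hw d hd
    set T := 1 + d • vecMulVec (pv x w) (star (pv x w)) with hTdef
    have hTv : T *ᵥ v = v + μ • pv x w := by
      rw [hTdef, add_mulVec, one_mulVec, smul_mulVec, vmv_mulVec, smul_smul, hxv]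
    refine ⟨T *ᵥ v, ?_, fun hc => ?_, ?_, fun l hli hlj => ?_⟩
    · have : sp (T *ᵥ v) (T *ᵥ v) = sp v ((Tᴴ * T) *ᵥ v) := by
        rw [sp, sp, star_mulVec, ← dotProduct_mulVec, mulVec_mulVec]
      rw [this, H.unit' hT, one_mulVec, hv]
    · have := H.centre_mulVec hc (H.inv hT)
      rwa [mulVec_mulVec, H.unit' hT, one_mulVec] at this
    · funext k
      change (T *ᵥ v) (i, k) = v (i, k) + μ * w k
      rw [hTv]
      simp [pv, hx, Pi.single_eq_of_ne hij]
    · funext k
      change (T *ᵥ v) (l, k) = v (l, k)
      rw [hTv]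
      simp [pv, hx, Pi.single_eq_of_ne hli, Pi.single_eq_of_ne hlj]
  suffices h : ∀ n v, sp v v = 0 → (supp v).card = n → Centre M v from h _ v hv rfl
  intro n
  induction n using Nat.strong_induction_on with
  | _ n ih =>
    intro v hv hn
    rcases Nat.lt_or_ge n 2 with hn1 | hn2
    · -- a single component
      rcases isEmpty_or_nonempty α with he | ⟨⟨i0⟩⟩
      · exact absurd hα (by rw [Fintype.card_eq_zero]; omega)
      obtain ⟨i, hi⟩ : ∃ i, ∀ l, l ≠ i → lay v l = 0 := by
        rcases Nat.eq_zero_or_pos n with h0 | h0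
        · refine ⟨i0, fun l _ => ?_⟩
          by_contra hl
          have : l ∈ supp v := Finset.mem_filter.2 ⟨Finset.mem_univ _, hl⟩
          rw [Finset.card_eq_zero.1 (hn.trans h0)] at this
          simp at this
        · obtain ⟨i, hi⟩ := Finset.card_eq_one.1 (show (supp v).card = 1 by omega)
          refine ⟨i, fun l hl => ?_⟩
          by_contra h
          have : l ∈ supp v := Finset.mem_filter.2 ⟨Finset.mem_univ _, h⟩
          rw [hi, Finset.mem_singleton] at this
          exact hl this
      have hiso : sp (lay v i) (lay v i) = 0 := by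
        rw [sp_layers, Finset.sum_eq_single i (fun l _ hl => by
          change sp (lay v l) (lay v l) = 0
          rw [hi l hl, sp_zero_left]) (by simp)] at hv
        exact hv
      have e : v = pv (Pi.single i 1) (lay v i) := by
        funext ⟨l, k⟩
        by_cases hl : l = i
        · subst hl; simp [pv, lay]
        · have := congrFun (hi l hl) k
          simp [pv, Pi.single_eq_of_ne hl, lay] at this ⊢
          exact this
      rw [e]
      exact H.centre_pv hb hq hα hbad _ hiso
    -- decreasing the support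
    have hdec : ∀ v' : Ix → F, supp v' ⊂ supp v → sp v' v' = 0 → Centre M v' := fun v' hs hv' =>
      ih _ (hn ▸ Finset.card_lt_card hs) v' hv' rfl
    have kill : ∀ v : Ix → F, (∀ v' : Ix → F, supp v' ⊂ supp v → sp v' v' = 0 → Centre M v') → ∀ i j : α, i ≠ j →
        sp v v = 0 → i ∈ supp v → j ∈ supp v → sp (lay v i) (lay v i) = 0 →
        sp (lay v i) (lay v j) ≠ 0 → Centre M v := by
      intro v hdec i j hij hv hi hj hii hwj
      obtain ⟨v', hv', hback, hi', hrest⟩ := move v i j (lay v i) (-1) hv hij hii hwj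
      refine hback (hdec v' (Finset.ssubset_iff_of_subset (fun l hl => ?_) |>.2 ⟨i, hi, fun h => ?_⟩) hv')
      · by_cases hli : l = i
        · rwa [hli]
        by_cases hlj : l = j
        · rwa [hlj]
        simp only [supp, Finset.mem_filter, hrest l hli hlj] at hl ⊢
        exact hl
      · simp [supp, hi'] at h
    have main : ∀ v : Ix → F, (∀ v' : Ix → F, supp v' ⊂ supp v → sp v' v' = 0 → Centre M v') → ∀ i j : α, i ≠ j →
        sp v v = 0 → i ∈ supp v → j ∈ supp v → sp (lay v i) (lay v i) = 0 → Centre M v := by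
      intro v hdec i j hij hv hi hj hii
      by_cases hwj : sp (lay v i) (lay v j) = 0
      swap
      · exact kill v hdec i j hij hv hi hj hii hwj
      obtain ⟨w, hww, hiw, hjw⟩ := exists_iso_not_perp₂ H.ns (by rw [Fintype.card_fin]; have := H.three; omega)
        (Finset.mem_filter.1 hi).2 (Finset.mem_filter.1 hj).2
      have hT := H.centre_pv hb hq hα hbad (Pi.single j 1) hww d hd
      set T := 1 + d • vecMulVec (pv (Pi.single j 1) w) (star (pv (Pi.single j 1) w)) with hTdef
      have hTv : T *ᵥ v = v + (d * sp w (lay v j)) • pv (Pi.single j 1) w := by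
        rw [hTdef, add_mulVec, one_mulVec, smul_mulVec, vmv_mulVec, smul_smul, sp_pv_left,
          Finset.sum_eq_single j (fun l _ hl => by simp [Pi.single_eq_of_ne hl]) (by simp)]
        simp [lay]
      set v' := T *ᵥ v with hv'def
      have hli : lay v' i = lay v i := by
        funext k
        change (T *ᵥ v) (i, k) = v (i, k)
        rw [← hv'def, hTv]
        simp [pv, Pi.single_eq_of_ne hij]
      have hlj : lay v' j = lay v j + (d * sp w (lay v j)) • w := by
        funext k
        change v' (j, k) = v (j, k) + (d * sp w (lay v j)) * w k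
        rw [hTv]
        simp [pv]
      have hne : sp (lay v' i) (lay v' j) ≠ 0 := by
        rw [hli, hlj, sp_add_right, sp_smul_right, hwj, zero_add]
        exact mul_ne_zero (mul_ne_zero hd0 fun h => hjw (sp_zero_comm.1 h)) hiw
      have hsupp : supp v' = supp v := by
        ext l
        simp only [supp, Finset.mem_filter, Finset.mem_univ, true_and]
        by_cases hlj' : l = j
        · subst hlj'
          exact iff_of_true (fun h => hne (by rw [h, sp_zero_right])) (Finset.mem_filter.1 hj).2
        · have : lay v' l = lay v l := by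
            funext k
            change v' (l, k) = v (l, k)
            rw [hTv]
            simp [pv, Pi.single_eq_of_ne hlj']
          rw [this]
      have hiso : sp v' v' = 0 := by
        have : sp (T *ᵥ v) (T *ᵥ v) = sp v ((Tᴴ * T) *ᵥ v) := by
          rw [sp, sp, star_mulVec, ← dotProduct_mulVec, mulVec_mulVec]
        rw [hv'def, this, H.unit' hT, one_mulVec, hv]
      have hc := kill v' (fun v'' hs => hdec v'' (hsupp ▸ hs)) i j hij hiso (hsupp ▸ hi) (hsupp ▸ hj)
        (hli.symm ▸ hii) hne
      have := H.centre_mulVec hc (H.inv hT)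
      rwa [hv'def, mulVec_mulVec, H.unit' hT, one_mulVec] at this
    obtain ⟨i, hi, j, hj, hij⟩ := Finset.one_lt_card.1 (show 1 < (supp v).card by omega)
    by_cases hii : sp (lay v i) (lay v i) = 0
    · exact main v hdec i j hij hv hi hj hii
    obtain ⟨w, hww, hiw, hjw⟩ := exists_iso_not_perp₂ H.ns (by rw [Fintype.card_fin]; have := H.three; omega)
      (Finset.mem_filter.1 hi).2 (Finset.mem_filter.1 hj).2
    obtain ⟨s, hs⟩ := exists_trace H.ns (a := -(sp (lay v i) (lay v i))) (by rw [star_neg, sp_star])
    obtain ⟨v', hv', hback, hi', hrest⟩ := move v i j w (s / sp (lay v i) w) hv hij hww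
      (fun h => hjw (sp_zero_comm.1 h))
    refine hback ?_
    have hii' : sp (lay v' i) (lay v' i) = 0 := by
      rw [hi', sp_add_left, sp_add_right, sp_add_right, sp_smul_left, sp_smul_left, sp_smul_right, sp_smul_right, hww]
      have h1 : s / sp (lay v i) w * sp (lay v i) w = s := div_mul_cancel₀ _ hiw
      have h2 : star (s / sp (lay v i) w) * sp w (lay v i) = star s := by rw [← sp_star (lay v i) w, ← star_mul', h1]
      linear_combination hs + h1 + h2
    have hsub : supp v' ⊆ supp v := fun l hl => by
      by_cases hli : l = i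
      · rwa [hli]
      by_cases hlj : l = j
      · rwa [hlj]
      simp only [supp, Finset.mem_filter, hrest l hli hlj] at hl ⊢
      exact hl
    by_cases heq : supp v' = supp v
    · exact main v' (fun v'' hs' => hdec v'' (heq ▸ hs')) i j hij hv' (heq ▸ hi) (heq ▸ hj) hii'
    · exact hdec v' (hsub.ssubset_of_ne heq) hv'

end Cfsg.Agent.H78.Tensor23
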