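import Cfsg.Agent.H78.Tensor23.Generate
import Cfsg.Agent.H78.Tensor23.Descent
import Cfsg.Agent.H99.TensorU.Maximal

/-!
The stabiliser of a decomposition of the six dimensional unitary space as a tensor product of a plane and a space
is maximal in the special unitary group, for fields with more than two fixed elements.
-/

set_option autoImplicit false
set_option linter.unusedSectionVars false

namespace Cfsg.Agent.H78.Tensor23

open Matrix H99.TensorU Cfsg.Geo
open H99.Tensor hiding Good Over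
open scoped Kronecker

section Pairs

variable {F : Type*} [Field F] [StarRing F] [Finite F] {n₁ n₂ : ℕ}

/-- In standard coordinates. -/
theorem kronecker_maximal (hns : ∃ x : F, star x ≠ x) (h2 : n₁ = 2) (h3 : n₂ = 3)
    (hq : ∃ r : F, star r = r ∧ r ≠ 0 ∧ r ≠ 1)
    (hgen : ∀ M : Subgroup (GL (Fin n₁ × Fin n₂) F), (∀ v : Fin n₁ × Fin n₂ → F, sp v v = 0 → Centre M v) →
      suP F (Fin n₁ × Fin n₂) ≤ M) :
    IsMaximalIn (suP F (Fin n₁ × Fin n₂)) (kroneckerSubgroup n₁ n₂ F ⊓ suP F (Fin n₁ × Fin n₂)) := by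
  classical
  have h1 : 2 ≤ n₁ := h2.ge
  have h12 : n₁ < n₂ := by omega
  have : Nonempty (Fin n₁) := ⟨⟨0, by omega⟩⟩
  refine H98.isMaximalIn_of inf_le_right ?_ ?_
  · obtain ⟨e₀, he₀⟩ := exists_norm hns (a := (-1 : F)) (by rw [star_neg, star_one])
    obtain ⟨d, hd0, hd⟩ := exists_skew hns
    let i0 : Fin n₁ := ⟨0, by omega⟩
    let i1 : Fin n₁ := ⟨1, by omega⟩
    let k0 : Fin n₂ := ⟨0, by omega⟩
    let k1 : Fin n₂ := ⟨1, by omega⟩
    let k2 : Fin n₂ := ⟨2, by omega⟩
    have h01 : i0 ≠ i1 := by simp [i0, i1]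
    have hk : k0 ≠ k1 := by simp [k0, k1]
    have hk02 : k0 ≠ k2 := by simp [k0, k2]
    have hk12 : k1 ≠ k2 := by simp [k1, k2]
    have he0 : e₀ ≠ 0 := fun h => by simp [h] at he₀
    set v : Fin n₁ × Fin n₂ → F := Pi.single (i0, k0) 1 + e₀ • Pi.single (i1, k1) 1 with hv
    have hvv : sp v v = 0 := by
      have h' : (i0, k0) ≠ (i1, k1) := fun e => h01 (congrArg Prod.fst e)
      simp only [hv, sp_add_left, sp_add_right, sp_smul_left, sp_smul_right, sp_single_left, Pi.single_eq_same,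
        Pi.single_eq_of_ne h', Pi.single_eq_of_ne h'.symm]
      linear_combination he₀
    obtain ⟨hu, hdt⟩ := trans_unitary hvv hd
    refine ⟨GeneralLinearGroup.mkOfDetNeZero _ (by rw [hdt]; exact one_ne_zero), ⟨hu, hdt⟩, ?_⟩
    rintro ⟨⟨g, h, hgh⟩, -⟩
    change (1 + d • vecMulVec v (star v) : Matrix _ _ F) = _ at hgh
    have e1 := congrFun (congrFun hgh (i0, k0)) (i1, k1)
    have e2 := congrFun (congrFun hgh (i0, k2)) (i1, k2)
    have e3 := congrFun (congrFun hgh (i0, k2)) (i0, k2)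
    simp [hv, Matrix.kronecker_apply, vecMulVec_apply, Matrix.one_apply, Pi.single_apply, h01, h01.symm, hk,
      hk.symm, hk02, hk02.symm, hk12, hk12.symm] at e1 e2 e3
    rcases e2 with h | h
    · rw [h, zero_mul] at e1
      simp [hd0, he0] at e1
    · rw [h, mul_zero] at e3
      exact one_ne_zero e3
  · subst h2 h3
    intro M hHM hMK g hg hgH
    have H : Over M :=
      { iso := fun y hy => (hMK hy).1
        det := fun y hy => (hMK hy).2
        pure := fun y hy hu hd => hHM ⟨isPure_mem_kronecker (by omega) (by omega) y hy, hu, hd⟩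
        three := le_rfl
        ns := hns }
    by_cases hgood : Good M
    · exact absurd ⟨isPure_mem_kronecker (by omega) (by omega) g
        (H.all_pure hgood hq g hg), hMK hg⟩ hgH
    · exact hgen M fun v hv => H.centre_all rfl (Or.inl hq) (by simp) hgood v hv

end Pairs

/-- The stabiliser of a tensor decomposition is maximal in the special unitary group (factors of dimensions
two and three). -/
theorem su_tensor_maximal_six {F : Type*} [Field F] [Fintype F] (n q : ℕ) (hF : Fintype.card F = q ^ 2) (hn : n = 6) (hq3 : 3 ≤ q)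
    (n₁ n₂ : ℕ) (h2 : n₁ = 2) (h3 : n₂ = 3) (e : Fin n ≃ Fin n₁ × Fin n₂)
    (P : GL (Fin n) F) (f₁ : (Fin n₁ → F) → (Fin n₁ → F) → F) (f₂ : (Fin n₂ → F) → (Fin n₂ → F) → F)
    (hf₁ : IsUnitaryFormPow q f₁) (hf₂ : IsUnitaryFormPow q f₂)
    (hT : IsTensorFormStructure (fun x : F => x ^ q) (Cfsg.hermForm n F q) f₁ f₂ e P) :
    IsMaximalIn (Cfsg.GU n F q ⊓ specialLinear (Fin n) F)
      (tensorProductSubgroup n₁ n₂ e P ⊓ (Cfsg.GU n F q ⊓ specialLinear (Fin n) F)) := by
  classical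
  set σ := H98.Herm.frobQ hF
  letI : StarRing F :=
    { star := fun x => x ^ q
      star_involutive := fun x => Cfsg.Agent.H3.pow_q_pow_q hF x
      star_mul := fun x y => by
        change (x * y) ^ q = y ^ q * x ^ q
        rw [mul_pow, mul_comm]
      star_add := fun x y => map_add σ x y }
  have hσ : ∀ x : F, σ x = star x := fun x => rfl
  have hstd := H98.Herm.isUnitary_std (n := n) hF
  have hns : ∃ x : F, star x ≠ x := by
    by_contra h
    push Not at h
    exact hstd.ne_refl (RingEquiv.ext h)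
  have hq : ∃ r : F, star r = r ∧ r ≠ 0 ∧ r ≠ 1 := by
    by_contra h
    push Not at h
    have hsub : {x : F | x ^ q = x} ⊆ ({0, 1} : Set F) := fun x hx => by
      by_cases h0 : x = 0
      · exact Or.inl h0
      · exact Or.inr (h x hx h0)
    have := Set.ncard_le_ncard hsub (Set.toFinite _)
    rw [← Nat.card_coe_set_eq, Set.coe_setOf, Cfsg.Agent.H3.card_fixed hF] at this
    have h' : ({0, 1} : Set F).ncard ≤ 2 := by rw [Set.ncard_pair zero_ne_one]
    omega
  have hsp : ∀ u v : Fin n → F, Cfsg.hermForm n F q u v = sp v u := fun u v => by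
    simp only [Cfsg.hermForm, sp, dotProduct, Pi.star_apply]
    exact Finset.sum_congr rfl fun i _ => mul_comm _ _
  have hu₁ : IsUnitaryForm σ f₁ :=
    ⟨hstd.ne_refl, hstd.involutive, hf₁.add_left, hf₁.smul_left, hf₁.herm, hf₁.nondegenerate⟩
  have hu₂ : IsUnitaryForm σ f₂ :=
    ⟨hstd.ne_refl, hstd.involutive, hf₂.add_left, hf₂.smul_left, hf₂.herm, hf₂.nondegenerate⟩
  obtain ⟨Q₁, hQ₁⟩ := exists_normal hσ hu₁
  obtain ⟨Q₂, hQ₂⟩ := exists_normal hσ hu₂
  set Qm := (Q₁ : Matrix (Fin n₁) (Fin n₁) F) ⊗ₖ (Q₂ : Matrix (Fin n₂) (Fin n₂) F) with hQm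
  have hQd : Qm.det ≠ 0 := by
    rw [hQm, det_kronecker]
    exact mul_ne_zero (pow_ne_zero _ (Matrix.GeneralLinearGroup.det Q₁).ne_zero)
      (pow_ne_zero _ (Matrix.GeneralLinearGroup.det Q₂).ne_zero)
  obtain ⟨c, hc0, hT⟩ := hT
  -- the form in orthonormal coordinates
  have hform : ∀ x y : Fin n₁ × Fin n₂ → F,
      sp ((P : Matrix (Fin n) (Fin n) F) *ᵥ ((Qm *ᵥ y) ∘ e)) ((P : Matrix (Fin n) (Fin n) F) *ᵥ ((Qm *ᵥ x) ∘ e)) =
        c * sp y x := by
    intro x y
    rw [← hsp, hT]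
    congr 1
    change formOfGram (fun a => star a) _ _ _ = _
    have hmap : star (Qm *ᵥ y) = Qm.map star *ᵥ star y := by
      funext i
      simp only [Pi.star_apply, Matrix.mulVec, dotProduct, star_sum, star_mul', Matrix.map_apply]
    have hG : Qmᵀ * (gramMatrix f₁ ⊗ₖ gramMatrix f₂) * Qm.map star = 1 := by
      have hm : Qm.map star = (Q₁ : Matrix (Fin n₁) (Fin n₁) F).map star ⊗ₖ
          (Q₂ : Matrix (Fin n₂) (Fin n₂) F).map star := by
        ext i j
        simp [hQm, star_mul']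
      rw [hm, hQm, ← kroneckerMap_transpose, ← mul_kronecker_mul, ← mul_kronecker_mul, hQ₁, hQ₂, one_kronecker_one]
    rw [formOfGram_eq, hmap, mulVec_mulVec, ← vecMul_transpose, ← dotProduct_mulVec, mulVec_mulVec,
      ← Matrix.mul_assoc, hG, one_mulVec, sp, dotProduct_comm]
  have hc : star c = c := by
    have hp : (⟨0, by omega⟩ : Fin n₁) = ⟨0, by omega⟩ := rfl
    let p0 : Fin n₁ × Fin n₂ := (⟨0, by omega⟩, ⟨0, by omega⟩)
    have h := hform (Pi.single p0 1) (Pi.single p0 1)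
    have h' := congrArg star h
    rw [sp_star, star_mul', sp_star, h, sp_single_left, Pi.single_eq_same, mul_one, mul_one] at h'
    exact h'.symm
  obtain ⟨l, hl⟩ := exists_norm hns hc
  have hl0 : l ≠ 0 := fun h => hc0 (by rw [← hl, h, zero_mul])
  let Qu : GL (Fin n₁ × Fin n₂) F :=
    GeneralLinearGroup.mkOfDetNeZero (l⁻¹ • Qm) (by
      rw [det_smul]; exact mul_ne_zero (pow_ne_zero _ (inv_ne_zero hl0)) hQd)
  let Pn : GL (Fin n) F := P * glReindex e.symm Qu
  have hPn : ∀ u v : Fin n → F, sp ((Pn : Matrix (Fin n) (Fin n) F) *ᵥ u) ((Pn : Matrix (Fin n) (Fin n) F) *ᵥ v) =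
      sp u v := by
    have key : ∀ u : Fin n → F, (Pn : Matrix (Fin n) (Fin n) F) *ᵥ u =
        l⁻¹ • ((P : Matrix (Fin n) (Fin n) F) *ᵥ ((Qm *ᵥ (u ∘ e.symm)) ∘ e)) := by
      intro u
      change ((P * glReindex e.symm Qu : GL (Fin n) F) : Matrix (Fin n) (Fin n) F) *ᵥ u = _
      rw [Units.val_mul, ← mulVec_mulVec, ← mulVec_smul]
      congr 1
      funext i
      change ((l⁻¹ • Qm).submatrix e.symm.symm e.symm.symm *ᵥ u) i = _
      rw [Equiv.symm_symm, submatrix_mulVec_equiv]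
      simp [smul_mulVec]
    intro u v
    rw [key, key, sp_smul_left, sp_smul_right, hform, ← hl]
    have : star l ≠ 0 := star_ne_zero.2 hl0
    have e2 : sp (u ∘ e.symm) (v ∘ e.symm) = sp u v := by
      simp only [sp, dotProduct, Pi.star_apply, Function.comp_apply]
      exact Equiv.sum_comp e.symm fun i => star (u i) * v i
    rw [e2, star_inv₀]
    field_simp
  -- the transport
  let Φ : GL (Fin n₁ × Fin n₂) F ≃* GL (Fin n) F := (glReindex e.symm).trans (MulAut.conj Pn)
  have hPnu : (Pn : Matrix (Fin n) (Fin n) F)ᴴ * (Pn : Matrix (Fin n) (Fin n) F) = 1 := by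
    ext i j
    have h := hPn (Pi.single i 1) (Pi.single j 1)
    rw [sp_single_left, Pi.single_apply, sp, star_mulVec, ← dotProduct_mulVec, mulVec_mulVec] at h
    rw [Matrix.one_apply, ← h]
    rw [show star (Pi.single i (1 : F) : Fin n → F) = Pi.single i 1 by
      funext x; by_cases hx : x = i <;> simp [hx, Pi.single_eq_of_ne]]
    simp [Matrix.mulVec_single_one]
  have hmat : ∀ y : GL (Fin n₁ × Fin n₂) F, (Φ y : Matrix (Fin n) (Fin n) F) =
      (Pn : Matrix (Fin n) (Fin n) F) * (y : Matrix (Fin n₁ × Fin n₂) (Fin n₁ × Fin n₂) F).submatrix e e *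
        (Pn : Matrix (Fin n) (Fin n) F)ᴴ := by
    intro y
    change ((Pn * glReindex e.symm y * Pn⁻¹ : GL (Fin n) F) : Matrix (Fin n) (Fin n) F) = _
    rw [Units.val_mul, Units.val_mul, Units.inv_eq_of_mul_eq_one_right (mul_eq_one_comm.1 hPnu)]
    rfl
  have hdet : ∀ y : GL (Fin n₁ × Fin n₂) F,
      (Φ y : Matrix (Fin n) (Fin n) F).det = (y : Matrix (Fin n₁ × Fin n₂) (Fin n₁ × Fin n₂) F).det := fun y => by
    change ((Pn * glReindex e.symm y * Pn⁻¹ : GL (Fin n) F) : Matrix (Fin n) (Fin n) F).det = _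
    rw [Units.val_mul, Units.val_mul, Matrix.det_units_conj, det_glReindex]
  have hGU : ∀ x : GL (Fin n) F, x ∈ Cfsg.GU n F q ↔
      (x : Matrix (Fin n) (Fin n) F) * (x : Matrix (Fin n) (Fin n) F)ᴴ = 1 := by
    intro x
    constructor
    · intro hx
      refine mul_eq_one_comm.1 ?_
      ext i j
      have h := hx (Pi.single j 1) (Pi.single i 1)
      change Cfsg.hermForm n F q ((x : Matrix (Fin n) (Fin n) F) *ᵥ _) ((x : Matrix (Fin n) (Fin n) F) *ᵥ _) = _ at h
      rw [hsp, hsp, sp_single_left, Pi.single_apply, sp, star_mulVec, ← dotProduct_mulVec, mulVec_mulVec,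
        show star (Pi.single i (1 : F) : Fin n → F) = Pi.single i 1 by
          funext x; by_cases hx : x = i <;> simp [hx, Pi.single_eq_of_ne]] at h
      rw [Matrix.one_apply, ← h]
      simp [Matrix.mulVec_single_one]
    · intro hx u v
      change Cfsg.hermForm n F q ((x : Matrix (Fin n) (Fin n) F) *ᵥ u) ((x : Matrix (Fin n) (Fin n) F) *ᵥ v) = _
      rw [hsp, hsp, sp, star_mulVec, ← dotProduct_mulVec, mulVec_mulVec, mul_eq_one_comm.1 hx, one_mulVec]
      rfl
  have hPnu' := mul_eq_one_comm.1 hPnu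
  have hsu : (suP F (Fin n₁ × Fin n₂)).map Φ.toMonoidHom = Cfsg.GU n F q ⊓ specialLinear (Fin n) F := by
    have hiff : ∀ y : GL (Fin n₁ × Fin n₂) F, (Φ y : Matrix (Fin n) (Fin n) F) * (Φ y : Matrix (Fin n) (Fin n) F)ᴴ = 1 ↔
        (y : Matrix (Fin n₁ × Fin n₂) (Fin n₁ × Fin n₂) F) * (y : Matrix (Fin n₁ × Fin n₂) (Fin n₁ × Fin n₂) F)ᴴ = 1 := by
      intro y
      set Y := (y : Matrix (Fin n₁ × Fin n₂) (Fin n₁ × Fin n₂) F)
      set A := (Pn : Matrix (Fin n) (Fin n) F)
      have e1 : A * Y.submatrix e e * Aᴴ * (A * Y.submatrix e e * Aᴴ)ᴴ = A * (Y * Yᴴ).submatrix e e * Aᴴ := by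
        rw [conjTranspose_mul, conjTranspose_mul, conjTranspose_conjTranspose, ← submatrix_mul_equiv Y Yᴴ e e e,
          conjTranspose_submatrix]
        simp only [Matrix.mul_assoc]
        rw [← Matrix.mul_assoc Aᴴ A, hPnu, Matrix.one_mul]
      rw [hmat, e1]
      constructor
      · intro h
        have h' := congrArg (fun Z => Aᴴ * Z * A) h
        simp only [Matrix.mul_assoc, hPnu, Matrix.mul_one] at h'
        rw [← Matrix.mul_assoc Aᴴ A, hPnu, Matrix.one_mul] at h'
        have h'' := congrArg (fun Z : Matrix (Fin n) (Fin n) F => Z.submatrix e.symm e.symm) h'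
        simpa [submatrix_one_equiv] using h''
      · intro h
        rw [h, submatrix_one_equiv, Matrix.mul_one, hPnu']
    ext x
    constructor
    · rintro ⟨y, hy, rfl⟩
      exact ⟨(hGU _).2 ((hiff y).2 hy.1), MonoidHom.mem_ker.2 (Units.ext ((hdet y).trans hy.2))⟩
    · intro hx
      refine ⟨Φ.symm x, ⟨(hiff _).1 ?_, ?_⟩, Φ.apply_symm_apply x⟩
      · rw [Φ.apply_symm_apply]; exact (hGU _).1 hx.1
      · have := hdet (Φ.symm x)
        rw [Φ.apply_symm_apply] at this
        exact this.symm.trans (congrArg Units.val (MonoidHom.mem_ker.mp hx.2))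
  have hT' : tensorProductSubgroup n₁ n₂ e P = (kroneckerSubgroup n₁ n₂ F).map Φ.toMonoidHom := by
    have hQu : Qu ∈ kroneckerSubgroup n₁ n₂ F :=
      ⟨GeneralLinearGroup.mkOfDetNeZero (l⁻¹ • (Q₁ : Matrix (Fin n₁) (Fin n₁) F)) (by
        rw [det_smul]; exact mul_ne_zero (pow_ne_zero _ (inv_ne_zero hl0)) (Matrix.GeneralLinearGroup.det Q₁).ne_zero),
        Q₂, (smul_kronecker _ _ _).symm⟩
    ext x
    simp only [tensorProductSubgroup, Subgroup.map_map, Subgroup.mem_map]
    constructor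
    · rintro ⟨y, hy, rfl⟩
      refine ⟨Qu⁻¹ * y * Qu, mul_mem (mul_mem (inv_mem hQu) hy) hQu, ?_⟩
      change Pn * glReindex e.symm (Qu⁻¹ * y * Qu) * Pn⁻¹ = P * glReindex e.symm y * P⁻¹
      simp [Pn, map_mul, map_inv, mul_assoc]
    · rintro ⟨y, hy, rfl⟩
      refine ⟨Qu * y * Qu⁻¹, mul_mem (mul_mem hQu hy) (inv_mem hQu), ?_⟩
      change P * glReindex e.symm (Qu * y * Qu⁻¹) * P⁻¹ = Pn * glReindex e.symm y * Pn⁻¹
      simp [Pn, map_mul, map_inv, mul_assoc]
  have hgen : ∀ M : Subgroup (GL (Fin n₁ × Fin n₂) F), (∀ v : Fin n₁ × Fin n₂ → F, sp v v = 0 → Centre M v) →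
      suP F (Fin n₁ × Fin n₂) ≤ M := by
    intro M hM
    have hle : Cfsg.GU n F q ⊓ specialLinear (Fin n) F ≤ M.map Φ.toMonoidHom := by
      refine H98.Herm.su_le_of_uT hF (by omega) fun v hv d hd => ?_
      set A := (Pn : Matrix (Fin n) (Fin n) F)
      have e2 : ∀ u : Fin n → F, sp (u ∘ e.symm) (u ∘ e.symm) = sp u u := fun u => by
        simp only [sp, dotProduct, Pi.star_apply, Function.comp_apply]
        exact Equiv.sum_comp e.symm fun i => star (u i) * u i
      set w := (Aᴴ *ᵥ v) ∘ e.symm with hw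
      have hww : sp w w = 0 := by
        rw [hw, e2, sp, star_mulVec, conjTranspose_conjTranspose, ← dotProduct_mulVec, mulVec_mulVec, hPnu',
          one_mulVec]
        rw [hsp] at hv
        exact hv
      obtain ⟨y, hy, hyE⟩ := hM w hww d hd
      refine ⟨y, hy, H98.gl_ext fun x => ?_⟩
      rw [H98.Herm.uT_mulVec, hsp]
      change (Φ y : Matrix (Fin n) (Fin n) F) *ᵥ x = _
      have e3 : (1 + d • vecMulVec w (star w)).submatrix e e =
          1 + d • vecMulVec (Aᴴ *ᵥ v) (star (Aᴴ *ᵥ v)) := by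
        ext i j
        simp [hw, vecMulVec_apply, Matrix.one_apply]
      rw [hmat, hyE, e3, Matrix.mul_add, Matrix.add_mul, Matrix.mul_one, hPnu', Matrix.mul_smul, Matrix.smul_mul,
        vmv_conj, mulVec_mulVec, hPnu', one_mulVec, add_mulVec, one_mulVec, smul_mulVec, vmv_mulVec, smul_smul]
    rw [← hsu] at hle
    exact (Subgroup.map_le_map_iff_of_injective (show Function.Injective Φ.toMonoidHom from Φ.injective)).mp hle
  have hnn : n₁ * n₂ = n := by simpa using (Fintype.card_congr e).symm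
  have := isMaximalIn_map Φ (kronecker_maximal hns h2 h3 hq hgen)
  rwa [Subgroup.map_inf _ _ _ (show Function.Injective Φ.toMonoidHom from Φ.injective), hsu, ← hT'] at this

end Cfsg.Agent.H78.Tensor23
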