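import Cfsg.Agent.H78.Tensor23.Basic
import Cfsg.Agent.H99.TensorU.Zero

/-!
Elementary facts on the fields and on small unitary spaces.
-/

set_option autoImplicit false
set_option linter.unusedSectionVars false

namespace Cfsg.Agent.H78.Tensor23

open Matrix H99.TensorU MvPolynomial
open H99.Tensor hiding Good Over
open scoped Kronecker

variable {F : Type*} [Field F] [StarRing F]

/-- An element of norm one whose square is not one. -/
theorem exists_norm_one_sq (hns : ∃ x : F, star x ≠ x) : ∃ μ : F, μ * star μ = 1 ∧ μ * μ ≠ 1 := by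
  by_contra h
  push Not at h
  obtain ⟨ξ, hξ⟩ := hns
  have key : ∀ z : F, star z * star z = z * z := fun z => by
    rcases eq_or_ne z 0 with rfl | hz
    · simp
    have hz' := star_ne_zero.2 hz
    have h1 := h (star z / z) (by rw [star_div₀, star_star]; field_simp)
    field_simp at h1
    linear_combination h1
  have e1 := key ξ
  have e2 := key (ξ + 1)
  rw [star_add, star_one] at e2
  have h2 : (2 : F) = 0 := by
    have : (2 : F) * (star ξ - ξ) = 0 := by linear_combination e2 - e1
    exact (mul_eq_zero.1 this).resolve_right (sub_ne_zero.2 hξ)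
  have : (star ξ - ξ) * (star ξ - ξ) = 0 := by linear_combination e1 + (ξ * ξ - ξ * star ξ) * h2
  exact hξ (sub_eq_zero.1 (mul_self_eq_zero.1 this))

/-- An element of norm one whose cube is not one. -/
theorem exists_norm_one_cube (hns : ∃ x : F, star x ≠ x) (hr : ∃ r : F, star r = r ∧ r ≠ 0 ∧ r ≠ 1) :
    ∃ μ : F, μ * star μ = 1 ∧ μ * μ * μ ≠ 1 := by
  by_contra h
  push Not at h
  obtain ⟨ξ, hξ⟩ := hns
  obtain ⟨r, hr, hr0, hr1⟩ := hr
  have key : ∀ z : F, star z * star z * star z = z * z * z := fun z => by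
    rcases eq_or_ne z 0 with rfl | hz
    · simp
    have hz' := star_ne_zero.2 hz
    have h1 := h (star z / z) (by rw [star_div₀, star_star]; field_simp)
    field_simp at h1
    linear_combination h1
  have hne := sub_ne_zero.2 hξ
  have e0 := key ξ
  by_cases h3 : (3 : F) = 0
  · have : (star ξ - ξ) * (star ξ - ξ) * (star ξ - ξ) = 0 := by
      linear_combination e0 + (ξ * ξ * star ξ - ξ * star ξ * star ξ) * h3
    simp [hne] at this
  · have e : ∀ t : F, star t = t → t ≠ 0 → t + star ξ + ξ = 0 := fun t ht ht0 => by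
      have e1 := key (ξ + t)
      rw [star_add, ht] at e1
      have : (3 : F) * (star ξ - ξ) * t * (t + star ξ + ξ) = 0 := by linear_combination e1 - e0
      exact (mul_eq_zero.1 this).resolve_left (mul_ne_zero (mul_ne_zero h3 hne) ht0)
    exact hr1 (by linear_combination e r hr hr0 - e 1 (star_one F) one_ne_zero)

/-- An element whose norm is neither zero nor one. -/
theorem exists_norm_ne [Finite F] (hns : ∃ x : F, star x ≠ x) (hr : ∃ r : F, star r = r ∧ r ≠ 0 ∧ r ≠ 1) :
    ∃ x : F, x ≠ 0 ∧ x * star x ≠ 1 := by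
  obtain ⟨r, hr, hr0, hr1⟩ := hr
  obtain ⟨x, hx⟩ := exists_norm hns hr
  exact ⟨x, fun h => hr0 (by rw [← hx, h, zero_mul]), hx ▸ hr1⟩

/-- A ternary quadratic form given as a determinant has a zero. -/
theorem exists_det_zero [Finite F] (Mt : Fin 3 → Matrix (Fin 2) (Fin 2) F) :
    ∃ x : Fin 3 → F, x ≠ 0 ∧ (∑ i, x i • Mt i).det = 0 := by
  classical
  have : Fintype F := Fintype.ofFinite _
  obtain ⟨p, hp⟩ := CharP.exists F
  let P : Matrix (Fin 2) (Fin 2) (MvPolynomial (Fin 3) F) :=
    ∑ i, (MvPolynomial.X i : MvPolynomial (Fin 3) F) • (Mt i).map MvPolynomial.C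
  have e2 : ∀ x : Fin 3 → F, eval x P.det = (∑ i, x i • Mt i).det := by
    intro x
    rw [RingHom.map_det]
    congr 1
    ext a c
    simp [P, Matrix.sum_apply]
  have hd2 : P.det.totalDegree ≤ 2 := by
    refine totalDegree_det_le P fun a c => ?_
    simp only [P, Matrix.sum_apply]
    refine totalDegree_finsetSum_le fun i _ => ?_
    rw [Matrix.smul_apply, smul_eq_mul, Matrix.map_apply]
    refine le_trans (totalDegree_mul _ _) ?_
    rw [totalDegree_C, totalDegree_X]
  have hdiv := char_dvd_card_solutions p (f := P.det) (by rw [Fintype.card_fin]; omega)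
  have h02 : eval (0 : Fin 3 → F) P.det = 0 := by rw [e2]; simp
  have hp2 : 2 ≤ p := ((CharP.char_is_prime_or_zero F p).resolve_right (fun h => by
    subst h; exact CharP.char_ne_zero_of_finite F 0 rfl)).two_le
  have hcard : 1 < Fintype.card { x : Fin 3 → F // eval x P.det = 0 } := by
    have : 0 < Fintype.card { x : Fin 3 → F // eval x P.det = 0 } := Fintype.card_pos_iff.2 ⟨⟨0, h02⟩⟩
    exact lt_of_lt_of_le hp2 (Nat.le_of_dvd this hdiv)
  obtain ⟨⟨x, hx⟩, hne⟩ := Fintype.exists_ne_of_one_lt_card hcard ⟨0, h02⟩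
  exact ⟨x, fun h => hne (Subtype.ext h), by rw [← e2, hx]⟩

variable {ι : Type} [Fintype ι] [DecidableEq ι]

/-- The orthogonal complement of an anisotropic vector in a plane. -/
theorem orth2 {a a' : Fin 2 → F} (ha : sp a a ≠ 0) (ha' : a' ≠ 0) (haa : sp a a' = 0) :
    sp a' a' ≠ 0 ∧ (sp a a)⁻¹ • vecMulVec a (star a) + (sp a' a')⁻¹ • vecMulVec a' (star a') = 1 := by
  let f : (Fin 2 → F) →ₗ[F] F :=
    { toFun := fun x => sp a x
      map_add' := fun x y => sp_add_right a x y
      map_smul' := fun c x => sp_smul_right c a x }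
  have hsurj : LinearMap.range f = ⊤ := LinearMap.range_eq_top.2 fun r => ⟨(r / sp a a) • a, by
    simp [f, sp_smul_right, div_mul_cancel₀ _ ha]⟩
  have hk : Module.finrank F (LinearMap.ker f) = 1 := by
    have := LinearMap.finrank_range_add_finrank_ker f
    rw [hsurj, finrank_top, Module.finrank_self, Module.finrank_fintype_fun_eq_card, Fintype.card_fin] at this
    omega
  have hmem : ∀ v : Fin 2 → F, ∃ c : F, v - (sp a v / sp a a) • a = c • a' := by
    intro v
    have hv : v - (sp a v / sp a a) • a ∈ LinearMap.ker f := by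
      simp [f, sp_sub_right, sp_smul_right, div_mul_cancel₀ _ ha]
    obtain ⟨c, hc⟩ := (finrank_eq_one_iff_of_nonzero' (⟨a', haa⟩ : LinearMap.ker f) (fun h => ha' (congrArg Subtype.val h))).1 hk
      ⟨_, hv⟩
    exact ⟨c, (congrArg Subtype.val hc).symm⟩
  have haa' := sp_zero_comm.1 haa
  have hee : sp a' a' ≠ 0 := fun h0 => ha' (eq_zero_of_sp fun u => by
    obtain ⟨c, hc⟩ := hmem u
    have := congrArg (sp a') hc
    rw [sp_sub_right, sp_smul_right, sp_smul_right, haa', h0, mul_zero, sub_zero, mul_zero] at this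
    exact sp_zero_comm.1 this)
  refine ⟨hee, Matrix.ext_of_mulVec_single fun k => ?_⟩
  set v : Fin 2 → F := Pi.single k 1
  obtain ⟨c, hc⟩ := hmem v
  have hev : c = sp a' v / sp a' a' := by
    have := congrArg (sp a') hc
    rw [sp_sub_right, sp_smul_right, sp_smul_right, haa', mul_zero, sub_zero] at this
    rw [eq_div_iff hee]
    linear_combination -this
  rw [add_mulVec, smul_mulVec, smul_mulVec, vmv_mulVec, vmv_mulVec, one_mulVec, smul_smul, smul_smul,
    ← div_eq_inv_mul, ← div_eq_inv_mul, ← hev]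
  linear_combination (norm := module) -hc

/-- The common orthogonal of two orthogonal anisotropic vectors of a space of dimension three. -/
theorem orth3 {e₀ e₁ e₂ : Fin 3 → F} (h0 : sp e₀ e₀ ≠ 0) (h1 : sp e₁ e₁ ≠ 0) (h01 : sp e₀ e₁ = 0)
    (he₂ : e₂ ≠ 0) (h02 : sp e₀ e₂ = 0) (h12 : sp e₁ e₂ = 0) :
    sp e₂ e₂ ≠ 0 ∧ ∀ v, sp e₀ v = 0 → sp e₁ v = 0 → ∃ c : F, v = c • e₂ := by
  let f : (Fin 3 → F) →ₗ[F] F × F :=
    { toFun := fun x => (sp e₀ x, sp e₁ x)
      map_add' := fun x y => by simp [sp_add_right]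
      map_smul' := fun c x => by simp [sp_smul_right] }
  have h10 := sp_zero_comm.1 h01
  have hsurj : LinearMap.range f = ⊤ := LinearMap.range_eq_top.2 fun p =>
    ⟨(p.1 / sp e₀ e₀) • e₀ + (p.2 / sp e₁ e₁) • e₁, by
      simp [f, sp_add_right, sp_smul_right, h01, h10, div_mul_cancel₀ _ h0, div_mul_cancel₀ _ h1]⟩
  have hk : Module.finrank F (LinearMap.ker f) = 1 := by
    have := LinearMap.finrank_range_add_finrank_ker f
    rw [hsurj, finrank_top, Module.finrank_prod, Module.finrank_self, Module.finrank_fintype_fun_eq_card,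
      Fintype.card_fin] at this
    omega
  have he : e₂ ∈ LinearMap.ker f := by simp [f, h02, h12]
  have hmem : ∀ v, sp e₀ v = 0 → sp e₁ v = 0 → ∃ c : F, v = c • e₂ := fun v a b => by
    obtain ⟨c, hc⟩ := (finrank_eq_one_iff_of_nonzero' (⟨e₂, he⟩ : LinearMap.ker f) (fun h => he₂ (congrArg Subtype.val h))).1 hk
      ⟨v, by simp [f, a, b]⟩
    exact ⟨c, (congrArg Subtype.val hc).symm⟩
  refine ⟨fun h22 => he₂ (eq_zero_of_sp fun u => ?_), hmem⟩
  obtain ⟨c, hc⟩ := hmem (u - (sp e₀ u / sp e₀ e₀) • e₀ - (sp e₁ u / sp e₁ e₁) • e₁)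
    (by rw [sp_sub_right, sp_sub_right, sp_smul_right, sp_smul_right, h01, div_mul_cancel₀ _ h0]; ring)
    (by rw [sp_sub_right, sp_sub_right, sp_smul_right, sp_smul_right, h10, div_mul_cancel₀ _ h1]; ring)
  have := congrArg (sp e₂) hc
  rw [sp_sub_right, sp_sub_right, sp_smul_right, sp_smul_right, sp_smul_right, sp_zero_comm.1 h02,
    sp_zero_comm.1 h12, h22, mul_zero, mul_zero, mul_zero, sub_zero, sub_zero] at this
  exact sp_zero_comm.1 this

/-- The inner product of pure vectors. -/
theorem sp_pv {α : Type} [Fintype α] {b : ℕ} (x y : α → F) (w z : Fin b → F) :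
    sp (pv x w) (pv y z) = sp x y * sp w z := by
  simp only [sp, dotProduct, Fintype.sum_prod_type, pv, Pi.star_apply, star_mul']
  rw [Finset.sum_mul_sum]
  exact Finset.sum_congr rfl fun i _ => Finset.sum_congr rfl fun k _ => by ring

theorem lft_mulVec {α : Type} [Fintype α] [DecidableEq α] {b : ℕ} (a : α → F) (w : Fin b → F) :
    lft α w *ᵥ a = pv a w := by
  funext ⟨i, k⟩
  simp [mulVec, dotProduct, lft_apply, pv, mul_comm]

theorem rgt_pv {α : Type} [Fintype α] [DecidableEq α] {b : ℕ} (a : α → F) (w x : Fin b → F) :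
    rgt α (star x) *ᵥ pv a w = sp x w • a := by
  rw [← lft_mulVec, mulVec_mulVec, rgt_mul_lft, smul_mulVec, one_mulVec]
  rfl

end Cfsg.Agent.H78.Tensor23
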