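import Cfsg.Agent.H78.Tensor23.Purity
import Cfsg.Agent.H78.Tensor23.Small
import Cfsg.Agent.H99.Tensor.Descent

/-!
Perturbations of rank two of the identity that are pure tensors, and conjugates of transvections and of
pseudo-reflections of the second factor.
-/

set_option autoImplicit false
set_option linter.unusedSectionVars false

namespace Cfsg.Agent.H78.Tensor23

open Matrix H99.TensorU
open H99.Tensor hiding Good Over
open scoped Kronecker

variable {F : Type*} [Field F]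

local notation "I₆" => Fin 2 × Fin 3

/-- A pure perturbation of rank two acts trivially on the first factor. -/
theorem left_scalar {g : Matrix (Fin 2) (Fin 2) F} {k : Matrix (Fin 3) (Fin 3) F} {Y : Matrix I₆ (Fin 2) F}
    {Z : Matrix (Fin 2) I₆ F} (h : 1 + Y * Z = g ⊗ₖ k) :
    ∃ P : Matrix (Fin 3) (Fin 3) F, Y * Z = (1 : Matrix (Fin 2) (Fin 2) F) ⊗ₖ P := by
  by_cases hsc : ∃ γ : F, g = γ • (1 : Matrix (Fin 2) (Fin 2) F)
  · obtain ⟨γ, rfl⟩ := hsc
    refine ⟨γ • k - 1, ?_⟩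
    rw [eq_sub_of_add_eq' h, sub_eq_add_neg (γ • k), kronecker_add, kronecker_smul, ← smul_kronecker,
      ← neg_one_smul F (1 : Matrix (Fin 3) (Fin 3) F), kronecker_smul, one_kronecker_one, neg_one_smul,
      sub_eq_add_neg]
  exfalso
  obtain ⟨u, hu⟩ := exists_not_eigen hsc
  let f : (Fin 3 → F) →ₗ[F] (Fin 2 → F) :=
    { toFun := fun x => (Z * lft (Fin 2) x) *ᵥ u
      map_add' := fun x x' => by rw [lft_add, Matrix.mul_add, add_mulVec]
      map_smul' := fun a x => by rw [lft_smul, Matrix.mul_smul, smul_mulVec, RingHom.id_apply] }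
  obtain ⟨x, hx, hx0⟩ := Submodule.exists_mem_ne_zero_of_ne_bot
    (LinearMap.ker_ne_bot_of_finrank_lt (f := f) (by simp))
  have e := congrArg (fun T => (T * lft (Fin 2) x) *ᵥ u) h
  simp only [Matrix.add_mul, Matrix.one_mul, kron_lft, Matrix.mul_assoc, add_mulVec] at e
  rw [← mulVec_mulVec u Y, show (Z * lft (Fin 2) x) *ᵥ u = 0 from hx, mulVec_zero, add_zero] at e
  obtain ⟨η, hη⟩ := exists_dual hx0
  have e' := congrArg (rgt (Fin 2) η *ᵥ ·) e
  simp only [mulVec_mulVec, ← Matrix.mul_assoc, rgt_mul_lft, hη, one_smul, Matrix.smul_mul, Matrix.one_mul,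
    one_mulVec, smul_mulVec] at e'
  by_cases hc : η ⬝ᵥ (k *ᵥ x) = 0
  · rw [hc, zero_smul] at e'
    exact hu 0 (by rw [e', mulVec_zero, smul_zero])
  · refine hu (η ⬝ᵥ (k *ᵥ x))⁻¹ ?_
    conv_rhs => rw [e']
    rw [smul_smul, inv_mul_cancel₀ hc, one_smul]

variable [StarRing F] [Finite F]

/-- A matrix all of whose layers lie in a subspace without isotropic vectors is a single layer. -/
theorem exists_layer (hns : ∃ x : F, star x ≠ x) {E : Submodule F (Fin 3 → F)}
    (hE : ∀ x ∈ E, sp x x = 0 → x = 0) {Y : Matrix I₆ (Fin 2) F}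
    (hY : ∀ i j, (fun t => Y (i, t) j) ∈ E) (hinj : ∀ T : Matrix (Fin 2) (Fin 2) F, Y * T = 0 → T = 0) :
    ∃ (v : Fin 3 → F) (H : Matrix (Fin 2) (Fin 2) F), sp v v ≠ 0 ∧ Y = lft (Fin 2) v * H ∧ IsUnit H.det := by
  have hE1 : Module.finrank F E ≤ 1 := by
    by_contra h
    obtain ⟨x, hx, hx0, hxx⟩ := exists_iso_in hns E (by omega)
    exact hx0 (hE x hx hxx)
  obtain ⟨i, j, hij⟩ : ∃ i j, (fun t => Y (i, t) j) ≠ 0 := by
    by_contra h
    push Not at h
    have hY0 : Y = 0 := by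
      ext ⟨i, t⟩ j
      exact congrFun (h i j) t
    exact one_ne_zero (hinj 1 (by rw [hY0, Matrix.zero_mul]))
  set v : Fin 3 → F := fun t => Y (i, t) j with hv
  have hcoef : ∀ i' j', ∃ c : F, (fun t => Y (i', t) j') = c • v := by
    intro i' j'
    obtain ⟨v₀, hv₀⟩ := finrank_le_one_iff.1 hE1
    obtain ⟨c₀, hc₀⟩ := hv₀ ⟨v, hY i j⟩
    obtain ⟨c, hc⟩ := hv₀ ⟨_, hY i' j'⟩
    have e0 : c₀ • (v₀ : Fin 3 → F) = v := congrArg Subtype.val hc₀
    have e1 := congrArg Subtype.val hc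
    have hc0 : c₀ ≠ 0 := fun h => hij (by rw [h, zero_smul] at e0; exact e0.symm)
    refine ⟨c / c₀, ?_⟩
    rw [← e0, smul_smul, div_mul_cancel₀ _ hc0]
    exact e1.symm
  choose H hH using hcoef
  have hYv : Y = lft (Fin 2) v * Matrix.of H := by
    ext ⟨i', t⟩ j'
    have := congrFun (hH i' j') t
    simp only [Pi.smul_apply, smul_eq_mul] at this
    rw [this, Matrix.mul_apply, Finset.sum_eq_single i' (fun l _ hl => by simp [lft_apply, Ne.symm hl]) (by simp)]
    simp [lft_apply, mul_comm]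
  refine ⟨v, Matrix.of H, fun h => hij (hE v (hY i j) h), hYv, Ne.isUnit fun h0 => ?_⟩
  obtain ⟨y, hy0, hy⟩ := (Matrix.exists_mulVec_eq_zero_iff (M := Matrix.of H)).2 h0
  have hT := hinj (vecMulVec y (Pi.single 0 1)) (by
    rw [hYv, Matrix.mul_assoc, Matrix.mul_vecMulVec, hy, zero_vecMulVec, Matrix.mul_zero])
  refine hy0 (funext fun l => ?_)
  simpa [vecMulVec_apply] using congrFun (congrFun hT l) 0

variable {M : Subgroup (GL (Fin 2 × Fin 3) F)} (H : Over M) (hgood : Good M)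
include H hgood

theorem Over.col_inj {X : Matrix I₆ I₆ F} (hX : InM M X) {z : Fin 3 → F} (hz0 : z ≠ 0) :
    ∀ T : Matrix (Fin 2) (Fin 2) F, X * lft (Fin 2) z * T = 0 → T = 0 := fun T hT => by
  have e := congrArg (Xᴴ * ·) hT
  simp only [← Matrix.mul_assoc, H.unit' hX, Matrix.one_mul, Matrix.mul_zero] at e
  exact lft_injective hz0 (e.trans (Matrix.mul_zero _).symm)

omit H hgood in
theorem mem_of_kron {P : Matrix (Fin 3) (Fin 3) F} {Y : Matrix I₆ (Fin 2) F} {c : F}
    (h : ((1 : Matrix (Fin 2) (Fin 2) F) ⊗ₖ P) * Y = c • Y) (i : Fin 2) (j : Fin 2) :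
    P *ᵥ (fun t => Y (i, t) j) = c • fun t => Y (i, t) j := by
  funext t
  have := congrFun (congrFun h (i, t)) j
  rw [Matrix.mul_apply, Fintype.sum_prod_type, Finset.sum_eq_single i
    (fun l _ hl => Finset.sum_eq_zero fun s _ => by simp [Matrix.one_apply, Ne.symm hl]) (by simp)] at this
  simpa [mulVec, dotProduct] using this

/-- A conjugate of a transvection is not a pure tensor. -/
theorem Over.conj_trans_not_pure {X : Matrix I₆ I₆ F} (hX : InM M X)
    (hnp : ¬ IsPure X) {z : Fin 3 → F} (hz0 : z ≠ 0) (hz : sp z z = 0) {d : F} (hd0 : d ≠ 0) :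
    ¬ IsPure (1 + X * (d • (lft (Fin 2) z * rgt (Fin 2) (star z))) * Xᴴ) := by
  rintro ⟨g, k, hgk⟩
  set Y := X * lft (Fin 2) z with hY
  have hY' : Yᴴ = rgt (Fin 2) (star z) * Xᴴ := by rw [hY, conjTranspose_mul, lft_conjTranspose]
  have hYY : Yᴴ * Y = 0 := by
    rw [hY', hY, Matrix.mul_assoc, ← Matrix.mul_assoc Xᴴ, H.unit' hX, Matrix.one_mul, rgt_mul_lft,
      show star z ⬝ᵥ z = 0 from hz, zero_smul]
  have hR : 1 + (d • Y) * Yᴴ = g ⊗ₖ k := by
    rw [← hgk, hY', hY]
    simp only [Matrix.smul_mul, Matrix.mul_smul, Matrix.mul_assoc]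
  obtain ⟨P, hP⟩ := left_scalar hR
  have hPY : ((1 : Matrix (Fin 2) (Fin 2) F) ⊗ₖ P) * Y = (0 : F) • Y := by
    rw [← hP, Matrix.mul_assoc, hYY, Matrix.mul_zero, zero_smul]
  obtain ⟨v, L, hv, hYv, hL⟩ := exists_layer H.ns (Y := Y) (E := LinearMap.ker P.mulVecLin) (fun x hx hxx => by
    by_contra hx0
    refine H.ct_ne hgood rfl hX hnp hx0 hxx hz0 hz ?_
    have e := congrArg (· * lft (Fin 2) x) hP
    rw [kron_lft, show P *ᵥ x = 0 from hx, lft_zero, Matrix.zero_mul, Matrix.smul_mul, Matrix.smul_mul,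
      Matrix.mul_assoc, smul_eq_zero_iff_right hd0] at e
    have e2 := congrArg Matrix.conjTranspose (H.col_inj hgood hX hz0 _ e)
    rw [conjTranspose_zero, conjTranspose_mul, conjTranspose_conjTranspose, lft_conjTranspose, hY,
      ← Matrix.mul_assoc] at e2
    exact e2)
    (fun i j => (mem_of_kron hPY i j).trans (zero_smul _ _)) (H.col_inj hgood hX hz0)
  rw [hYv, conjTranspose_mul, lft_conjTranspose, Matrix.mul_assoc, ← Matrix.mul_assoc (rgt _ _), rgt_mul_lft,
    Matrix.smul_mul, Matrix.one_mul, Matrix.mul_smul] at hYY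
  have := congrArg Matrix.det ((smul_eq_zero.1 hYY).resolve_left hv)
  rw [det_mul, det_conjTranspose, det_zero] at this
  exact (hL.star.mul hL).ne_zero this

/-- A pure conjugate of a pseudo-reflection maps an anisotropic layer to a layer. -/
theorem Over.layer_of_perturb {X : Matrix I₆ I₆ F} (hX : InM M X) (hnp : ¬ IsPure X) {e : Fin 3 → F}
    (he : sp e e ≠ 0) {κ : F} (hκ : κ ≠ 0)
    (hp : IsPure (1 + (κ • (X * lft (Fin 2) e)) * (X * lft (Fin 2) e)ᴴ)) :
    ∃ (e' : Fin 3 → F) (L : Matrix (Fin 2) (Fin 2) F), sp e' e' ≠ 0 ∧ IsUnit L.det ∧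
      X * lft (Fin 2) e = lft (Fin 2) e' * L := by
  obtain ⟨g, k, hgk⟩ := hp
  obtain ⟨P, hP⟩ := left_scalar hgk
  set Y := X * lft (Fin 2) e with hY
  have hY' : Yᴴ = rgt (Fin 2) (star e) * Xᴴ := by rw [hY, conjTranspose_mul, lft_conjTranspose]
  have hYY : Yᴴ * Y = sp e e • (1 : Matrix (Fin 2) (Fin 2) F) := by
    rw [hY', hY, Matrix.mul_assoc, ← Matrix.mul_assoc Xᴴ, H.unit' hX, Matrix.one_mul, rgt_mul_lft]
    rfl
  have hPY : ((1 : Matrix (Fin 2) (Fin 2) F) ⊗ₖ P) * Y = (κ * sp e e) • Y := by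
    rw [← hP, Matrix.mul_assoc, hYY, Matrix.smul_mul, Matrix.mul_smul, Matrix.mul_one, smul_smul]
  have he0 : e ≠ 0 := fun h => he (by rw [h, sp_zero_left])
  obtain ⟨e', L, h1, h2, h3⟩ := exists_layer H.ns (Y := Y)
    (E := LinearMap.ker (P - (κ * sp e e) • (1 : Matrix (Fin 3) (Fin 3) F)).mulVecLin) (fun x hx hxx => by
    by_contra hx0
    obtain ⟨z, hz0, hz, hez⟩ := exists_iso_perp H.ns ![e] (by simp)
    refine H.ct_ne hgood rfl hX hnp hx0 hxx hz0 hz ?_
    have hPx : P *ᵥ x = (κ * sp e e) • x := by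
      have : (P - (κ * sp e e) • (1 : Matrix (Fin 3) (Fin 3) F)) *ᵥ x = 0 := hx
      rwa [sub_mulVec, smul_mulVec, one_mulVec, sub_eq_zero] at this
    have e1 := congrArg (· * lft (Fin 2) x) hP
    rw [kron_lft, hPx, lft_smul, Matrix.smul_mul, Matrix.smul_mul, Matrix.smul_mul, Matrix.mul_one, mul_smul,
      (smul_right_injective _ hκ).eq_iff] at e1
    have e2 := congrArg Matrix.conjTranspose e1
    rw [conjTranspose_smul, sp_star, conjTranspose_mul, conjTranspose_mul, conjTranspose_conjTranspose,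
      lft_conjTranspose] at e2
    have e3 : sp e e • ct (Fin 2) X x z = 0 := by
      rw [ct, ← Matrix.smul_mul, ← Matrix.smul_mul, ← e2, hY']
      simp only [Matrix.mul_assoc]
      rw [← Matrix.mul_assoc Xᴴ, H.unit' hX, Matrix.one_mul, rgt_mul_lft,
        show star e ⬝ᵥ z = 0 from hez 0, zero_smul, Matrix.mul_zero, Matrix.mul_zero]
    exact (smul_eq_zero.1 e3).resolve_left he)
    (fun i j => by
      rw [LinearMap.mem_ker, Matrix.mulVecLin_apply, sub_mulVec, smul_mulVec, one_mulVec, mem_of_kron hPY, sub_self])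
    (H.col_inj hgood hX he0)
  exact ⟨e', L, h1, h3, h2⟩

/-- The conjugates of a pseudo-reflection either stay outside the stabiliser or come from a layer. -/
theorem Over.refl_or_layer (hr : ∃ r : F, star r = r ∧ r ≠ 0 ∧ r ≠ 1) {X : Matrix I₆ I₆ F} (hX : InM M X)
    (hnp : ¬ IsPure X) {w e : Fin 3 → F} (hw : sp w w = 0) (he : sp e e ≠ 0) :
    (∃ (R : Matrix I₆ I₆ F) (c : F), InM M R ∧ ¬ IsPure R ∧
      ct (Fin 2) R w w = c • (ct (Fin 2) X w e * (ct (Fin 2) X w e)ᴴ)) ∨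
    ∃ (e' : Fin 3 → F) (L : Matrix (Fin 2) (Fin 2) F), sp e' e' ≠ 0 ∧ IsUnit L.det ∧
      X * lft (Fin 2) e = lft (Fin 2) e' * L := by
  obtain ⟨μ, hμ, hμ3⟩ := exists_norm_one_cube H.ns hr
  have hμ0 : μ ≠ 0 := left_ne_zero_of_mul_eq_one hμ
  set κ := (μ * μ * μ - 1) / sp e e with hκdef
  have hκ : κ ≠ 0 := div_ne_zero (sub_ne_zero.2 hμ3) he
  have hκs : κ * sp e e = μ * μ * μ - 1 := div_mul_cancel₀ _ he
  set k : Matrix (Fin 3) (Fin 3) F := 1 + κ • vecMulVec e (star e) with hk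
  have hkk : k * kᴴ = 1 := by
    have e1 : κ + star κ + κ * star κ * sp e e = 0 := by
      have h1 := congrArg star hκs
      rw [star_mul', sp_star, star_sub, star_mul', star_mul', star_one] at h1
      have h2 : (μ * μ * μ) * (star μ * star μ * star μ) = 1 := by
        rw [show (μ * μ * μ) * (star μ * star μ * star μ) = (μ * star μ) * (μ * star μ) * (μ * star μ) by ring, hμ]
        ring
      refine (mul_eq_zero.1 (show sp e e * (κ + star κ + κ * star κ * sp e e) = 0 from ?_)).resolve_left he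
      linear_combination hκs + h1 + (star κ * sp e e) * hκs + (μ * μ * μ - 1) * h1 + h2
    simp only [hk, conjTranspose_add, conjTranspose_one, conjTranspose_smul, vmv_conjTranspose, Matrix.add_mul,
      Matrix.mul_add, Matrix.one_mul, Matrix.mul_one, Matrix.smul_mul, Matrix.mul_smul, vmv_mul, smul_smul]
    linear_combination (norm := module) e1 • vecMulVec e (star e)
  have hkd : k.det = μ * μ * μ := by
    rw [hk, vecMulVec_eq Unit, ← Matrix.smul_mul, ← replicateCol_smul,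
      det_one_add_replicateCol_mul_replicateRow, dotProduct_smul, smul_eq_mul]
    change 1 + κ * sp e e = _
    rw [hκs]; ring
  set g : Matrix (Fin 2) (Fin 2) F := μ⁻¹ • 1 with hg
  have hgk : g ⊗ₖ k = μ⁻¹ • (1 + κ • (lft (Fin 2) e * rgt (Fin 2) (star e))) := by
    rw [hg, smul_kronecker, hk, kronecker_add, one_kronecker_one, kronecker_smul, lft_mul_rgt]
  have hg' : g * gᴴ = 1 := by
    rw [hg, conjTranspose_smul, conjTranspose_one, Matrix.smul_mul, Matrix.one_mul, smul_smul, star_inv₀,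
      ← mul_inv, hμ, inv_one, one_smul]
  have hM : InM M (g ⊗ₖ k) := H.of_pure g k
    (by rw [kron_conjTranspose, ← mul_kronecker_mul, hg', hkk, one_kronecker_one])
    (by
      rw [det_kronecker, hkd, hg, det_smul, det_one, mul_one, Fintype.card_fin, Fintype.card_fin]
      field_simp)
  set R := X * (g ⊗ₖ k) * Xᴴ with hR
  have hRM : InM M R := (hX.mul hM).mul (H.inv hX)
  set Y := X * lft (Fin 2) e with hY
  have hR' : R = μ⁻¹ • (1 + (κ • Y) * Yᴴ) := by
    rw [hR, hgk, hY, conjTranspose_mul, lft_conjTranspose]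
    simp only [Matrix.mul_smul, Matrix.smul_mul, Matrix.mul_add, Matrix.add_mul, Matrix.mul_one, Matrix.mul_assoc,
      H.unit hX]
  by_cases hp : IsPure R
  · refine Or.inr (H.layer_of_perturb hgood hX hnp he hκ ?_)
    obtain ⟨g', k', hgk'⟩ := hp
    refine ⟨μ • g', k', ?_⟩
    rw [smul_kronecker, ← hgk', hR', smul_smul, mul_inv_cancel₀ hμ0, one_smul]
  · refine Or.inl ⟨R, μ⁻¹ * κ, hRM, hp, ?_⟩
    rw [hR', smul_add, ct_add, ct, ct, Matrix.mul_smul, Matrix.mul_smul, Matrix.smul_mul, Matrix.smul_mul,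
      Matrix.mul_one, rgt_mul_lft, show star w ⬝ᵥ w = 0 from hw, zero_smul, smul_zero, zero_add, ct,
      hY]
    simp only [conjTranspose_mul, rgt_conjTranspose, lft_conjTranspose, Matrix.mul_assoc, Matrix.smul_mul,
      Matrix.mul_smul, smul_smul]

end Cfsg.Agent.H78.Tensor23
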