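import Cfsg.Agent.H78.Tensor23.Layer
import Cfsg.Agent.H99.TensorU.Purity
import Cfsg.Agent.H78.Tensor23.Basic

/-!
Purity of elements mapping an isotropic layer to a layer, for scalar layers.
-/

set_option autoImplicit false
set_option linter.unusedSectionVars false

namespace Cfsg.Agent.H78.Tensor23

open Matrix H99.TensorU
open H99.Tensor hiding Good Over
open scoped Kronecker

variable {F : Type*} [Field F] [StarRing F] [Finite F] {α : Type} [Fintype α] [DecidableEq α] {b : ℕ}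

local notation "Ix" => α × Fin b

variable {M : Subgroup (GL (α × Fin b) F)} (H : Over M) (hgood : Good M)
include H hgood

theorem Over.good_el {z : Fin b → F} (hz0 : z ≠ 0) (hz : sp z z = 0) {G : Matrix α α F} (h : InM M (el z 0 G)) :
    ∃ c : F, G = c • (1 : Matrix α α F) :=
  hgood z G hz0 hz (by rwa [el_scalar] at h)

/-- The middle part of an element of the unipotent radical comes from the second factor. -/
theorem Over.el_contract {z : Fin b → F} (hz0 : z ≠ 0) (hz : sp z z = 0) {A : Matrix Ix α F} {G : Matrix α α F}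
    (hA : rgt α (star z) * A = 0) (h : InM M (el z A G)) {η : Fin b → F} (hη : sp z η = 0) :
    ∃ c : F, rgt α (star η) * A = c • (1 : Matrix α α F) := by
  obtain ⟨d, hd0, hd⟩ := exists_skew H.ns
  have key : ∀ η : Fin b → F, sp z η = 0 →
      ∃ c : F, rgt α (star η) * A - Aᴴ * lft α η = c • (1 : Matrix α α F) := by
    intro η hη
    obtain ⟨t, ht⟩ := exists_trace H.ns (a := -(sp η η)) (by rw [star_neg, sp_star])
    have hR := H.root (c := t) hz hη (by linear_combination ht)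
    rw [root_el] at hR
    have hlη : rgt α (star z) * lft α η = 0 := by
      rw [rgt_mul_lft]; exact (congrArg (· • _) hη).trans (zero_smul _ _)
    have h1 := h.mul hR
    have h2 := hR.mul h
    rw [el_mul hz G (t • 1) hA hlη] at h1
    rw [el_mul hz (t • 1) G hlη hA, add_comm (lft α η) A] at h2
    set D := rgt α (star η) * A - Aᴴ * lft α η with hD
    have hfac : el z (A + lft α η) (G + t • 1 - Aᴴ * lft α η) =
        el z 0 D * el z (A + lft α η) (t • 1 + G - (lft α η)ᴴ * A) := by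
      rw [el_mul hz _ _ (Matrix.mul_zero _) (by rw [Matrix.mul_add, hA, hlη, add_zero]), zero_add,
        conjTranspose_zero, Matrix.zero_mul, sub_zero, hD, lft_conjTranspose]
      congr 1
      abel
    refine H.good_el hgood hz0 hz ?_
    have := h1.mul (H.inv h2)
    rwa [hfac, Matrix.mul_assoc, H.unit h2, Matrix.mul_one] at this
  obtain ⟨ξ, hξ⟩ := H.ns
  obtain ⟨c₁, h1⟩ := key η hη
  obtain ⟨c₂, h2⟩ := key (ξ • η) (by rw [sp_smul_right, hη, mul_zero])
  rw [rgt_star_smul, lft_smul, Matrix.smul_mul, Matrix.mul_smul] at h2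
  refine ⟨(c₂ - ξ * c₁) / (star ξ - ξ), ?_⟩
  have h3 : (star ξ - ξ) • (rgt α (star η) * A) = (c₂ - ξ * c₁) • (1 : Matrix α α F) := by
    calc (star ξ - ξ) • (rgt α (star η) * A)
        = (star ξ • (rgt α (star η) * A) - ξ • (Aᴴ * lft α η)) -
          ξ • (rgt α (star η) * A - Aᴴ * lft α η) := by module
      _ = _ := by rw [h1, h2]; module
  rw [div_eq_inv_mul, mul_smul, ← h3, smul_smul, inv_mul_cancel₀ (sub_ne_zero.2 hξ), one_smul]

/-- The middle part decomposes. -/
theorem Over.el_decomp {z : Fin b → F} (hz0 : z ≠ 0) (hz : sp z z = 0) {A : Matrix Ix α F} {c : F}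
    (hA : rgt α (star z) * A = 0) (h : InM M (el z A (c • 1))) :
    ∃ (u : Fin b → F) (K : Matrix α α F) (s : F),
      A = lft α u + lft α z * K ∧ K - Kᴴ = s • (1 : Matrix α α F) := by
  obtain ⟨z', hz', h1, h2⟩ := partner H.ns hz0 hz
  set K := rgt α (star z') * A with hK
  obtain ⟨u, hu⟩ := eq_lft (A - lft α z * K) fun φ => by
    set μ₀ := star φ - sp z (star φ) • z' with hμ₀
    have hμz : sp z μ₀ = 0 := by rw [hμ₀, sp_sub_right, sp_smul_right, h1]; ring
    obtain ⟨e, he⟩ := H.el_contract hgood hz0 hz hA h hμz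
    refine ⟨e, ?_⟩
    have e1 : φ ⬝ᵥ z = star (sp z (star φ)) := by rw [sp_star, sp, star_star]
    have e2 : rgt α (star μ₀) = rgt α φ + (-(φ ⬝ᵥ z)) • rgt α (star z') := by
      rw [hμ₀, sub_eq_add_neg, ← neg_smul, star_add, star_star, rgt_add, rgt_star_smul, star_neg, e1]
    rw [← he, e2, hK, Matrix.mul_sub, ← Matrix.mul_assoc, rgt_mul_lft, Matrix.add_mul, Matrix.smul_mul,
      Matrix.smul_mul, Matrix.one_mul, neg_smul, sub_eq_add_neg]
  have hsum : A = lft α u + lft α z * K := eq_add_of_sub_eq hu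
  rcases isEmpty_or_nonempty α with hα | ⟨⟨i⟩⟩
  · exact ⟨u, K, 0, hsum, by ext a; exact isEmptyElim a⟩
  have hu0 : sp z u = 0 := by
    have := congrArg (rgt α (star z) * ·) hu
    rw [Matrix.mul_sub, hA, ← Matrix.mul_assoc, rgt_mul_lft, rgt_mul_lft] at this
    have hzz : star z ⬝ᵥ z = 0 := hz
    rw [hzz, zero_smul, Matrix.zero_mul, sub_zero] at this
    simpa [sp] using (congrFun (congrFun this i) i).symm
  obtain ⟨t, ht⟩ := exists_trace H.ns (a := -(sp (-u) (-u))) (by rw [star_neg, sp_star])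
  have hu0' : sp z (-u) = 0 := by rw [sp_neg_right, hu0, neg_zero]
  have hR := H.root (c := t) hz hu0' (by linear_combination ht)
  rw [root_el] at hR
  have hlu : rgt α (star z) * lft α (-u) = 0 := by
    rw [rgt_mul_lft]; exact (congrArg (· • _) hu0').trans (zero_smul _ _)
  have h3 := h.mul hR
  rw [el_mul hz (c • 1) (t • 1) hA hlu] at h3
  have e1 : Aᴴ * lft α (-u) = (sp u (-u)) • (1 : Matrix α α F) := by
    rw [hsum, conjTranspose_add, conjTranspose_mul, lft_conjTranspose, lft_conjTranspose, Matrix.add_mul,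
      Matrix.mul_assoc, rgt_mul_lft, hlu, Matrix.mul_zero, add_zero, sp]
  have e2 : A + lft α (-u) = lft α z * K := by
    rw [hsum, add_right_comm, ← lft_add, add_neg_cancel, lft_zero, zero_add]
  rw [e1, e2] at h3
  have e3 : el z (lft α z * K) (c • (1 : Matrix α α F) + t • 1 - sp u (-u) • 1) =
      el z 0 ((K - Kᴴ) + (c + t - sp u (-u)) • 1) := by
    simp only [el, conjTranspose_mul, lft_conjTranspose, conjTranspose_zero, Matrix.mul_add, Matrix.add_mul,
      Matrix.mul_sub, Matrix.sub_mul, Matrix.mul_assoc, Matrix.zero_mul, Matrix.mul_zero, add_smul, sub_smul]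
    abel
  rw [e3] at h3
  obtain ⟨s, hs⟩ := H.good_el hgood hz0 hz h3
  exact ⟨u, K, s - (c + t - sp u (-u)), hsum, by rw [sub_smul, ← hs]; abel⟩

/-- The middle part of an element whose multiples occur comes from the second factor. -/
theorem Over.el_std {z : Fin b → F} (hz0 : z ≠ 0) (hz : sp z z = 0) {A : Matrix Ix α F} {c c' ξ : F}
    (hA : rgt α (star z) * A = 0) (hξ : star ξ ≠ ξ) (h : InM M (el z A (c • 1)))
    (h' : InM M (el z (ξ • A) (c' • 1))) : ∃ u : Fin b → F, A = lft α u := by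
  rcases isEmpty_or_nonempty α with hα | ⟨⟨i⟩⟩
  · exact ⟨0, by ext p; exact isEmptyElim p.1⟩
  obtain ⟨u, K, s, hu, hs⟩ := H.el_decomp hgood hz0 hz hA h
  obtain ⟨u', K', s', hu', hs'⟩ := H.el_decomp hgood hz0 hz (A := ξ • A)
    (by rw [Matrix.mul_smul, hA, smul_zero]) h'
  obtain ⟨z', hz', h1, h2⟩ := partner H.ns hz0 hz
  have h2' : star z' ⬝ᵥ z = 1 := h2
  have eK := congrArg (rgt α (star z') * ·) hu
  have eK' := congrArg (rgt α (star z') * ·) hu'
  simp only [Matrix.mul_add, ← Matrix.mul_assoc, rgt_mul_lft, h2', one_smul, Matrix.one_mul] at eK eK'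
  set κ := star z' ⬝ᵥ u
  set κ' := star z' ⬝ᵥ u'
  rw [Matrix.mul_smul, eK] at eK'
  have hK' : K' = ξ • K + (ξ * κ - κ') • (1 : Matrix α α F) :=
    add_left_cancel (a := κ' • (1 : Matrix α α F)) (by rw [← eK']; module)
  rw [hK', conjTranspose_add, conjTranspose_smul, conjTranspose_smul, conjTranspose_one] at hs'
  have h3 : (ξ - star ξ) • K = (s' - (ξ * κ - κ') + star (ξ * κ - κ') - star ξ * s) • (1 : Matrix α α F) := by
    calc (ξ - star ξ) • K
        = (ξ • K + (ξ * κ - κ') • 1 - (star ξ • Kᴴ + star (ξ * κ - κ') • 1)) -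
          (ξ * κ - κ') • 1 + star (ξ * κ - κ') • 1 - star ξ • (K - Kᴴ) := by module
      _ = _ := by rw [hs', hs]; module
  obtain ⟨k, hk⟩ : ∃ k : F, K = k • (1 : Matrix α α F) :=
    ⟨(s' - (ξ * κ - κ') + star (ξ * κ - κ') - star ξ * s) / (ξ - star ξ), by
      rw [div_eq_inv_mul, mul_smul, ← h3, smul_smul, inv_mul_cancel₀ (sub_ne_zero.2 (Ne.symm hξ)), one_smul]⟩
  exact ⟨u + k • z, by rw [hu, hk, Matrix.mul_smul, Matrix.mul_one, lft_add, lft_smul]⟩

/-- An element mapping a layer to a layer maps the neighbouring layers to layers. -/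
theorem Over.layer_image {z z₂ : Fin b → F} (hz0 : z ≠ 0) (hz : sp z z = 0) (hz₂0 : z₂ ≠ 0)
    (hz₂ : sp z₂ z₂ = 0) {X : Matrix Ix Ix F} (hX : InM M X) {h : Matrix α α F} (hh : X * lft α z = lft α z₂ * h)
    (hdet : IsUnit h.det) {η : Fin b → F} (hη : sp z η = 0) :
    ∃ u : Fin b → F, X * lft α η = lft α u * h := by
  rcases isEmpty_or_nonempty α with hα | ⟨⟨i⟩⟩
  · exact ⟨0, by ext p; exact isEmptyElim p.1⟩
  have : Nonempty α := ⟨i⟩
  obtain ⟨d, hd0, hd⟩ := exists_skew H.ns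
  have hh' : hᴴ * rgt α (star z₂) = rgt α (star z) * Xᴴ := by
    have := congrArg Matrix.conjTranspose hh
    rw [conjTranspose_mul, conjTranspose_mul, lft_conjTranspose, lft_conjTranspose] at this
    exact this.symm
  -- a scalar product
  obtain ⟨μ, hμ⟩ : ∃ μ : F, d • (h * hᴴ) = μ • (1 : Matrix α α F) := by
    have h1 := H.trans (α := α) hz hd
    rw [smul_kronecker, ← lft_mul_rgt] at h1
    have h2 := H.conj h1 hX
    refine hgood z₂ _ hz₂0 hz₂ ?_
    convert h2 using 2
    rw [← lft_mid_rgt, Matrix.mul_smul, Matrix.smul_mul, Matrix.mul_smul, Matrix.smul_mul, ← Matrix.mul_assoc X, hh,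
      Matrix.mul_assoc _ (rgt α (star z)), ← hh']
    simp only [Matrix.mul_assoc]
  have hhh : h * hᴴ = (μ / d) • (1 : Matrix α α F) := by
    rw [div_eq_inv_mul, mul_smul, ← hμ, smul_smul, inv_mul_cancel₀ hd0, one_smul]
  have hhu : IsUnit hᴴ.det := by rw [det_conjTranspose]; exact hdet.star
  have hμ0 : μ / d ≠ 0 := by
    intro h0
    have := congrArg Matrix.det hhh
    rw [h0, zero_smul, det_mul, det_zero] at this
    exact (hdet.mul hhu).ne_zero this
  have hA : ∀ η, sp z η = 0 → rgt α (star z₂) * (X * lft α η * hᴴ) = 0 := by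
    intro η hη
    have e : hᴴ * (rgt α (star z₂) * (X * lft α η * hᴴ)) = 0 := by
      rw [← Matrix.mul_assoc, hh', Matrix.mul_assoc, ← Matrix.mul_assoc Xᴴ, ← Matrix.mul_assoc Xᴴ, H.unit' hX,
        Matrix.one_mul, ← Matrix.mul_assoc, rgt_mul_lft]
      exact (congrArg (fun s : F => s • (1 : Matrix α α F) * hᴴ) hη).trans (by simp)
    have := congrArg ((hᴴ)⁻¹ * ·) e
    rwa [← Matrix.mul_assoc, Matrix.nonsing_inv_mul _ hhu, Matrix.one_mul, Matrix.mul_zero] at this
  have hel : ∀ η, sp z η = 0 → ∃ c : F, InM M (el z₂ (X * lft α η * hᴴ) (c • 1)) := by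
    intro η hη
    obtain ⟨t, ht⟩ := exists_trace H.ns (a := -(sp η η)) (by rw [star_neg, sp_star])
    have h1 := H.root (α := α) (c := t) hz hη (by linear_combination ht)
    refine ⟨t * (μ / d), ?_⟩
    set N := (1 : Matrix α α F) ⊗ₖ nil z η t with hN
    have h2 := H.conj h1 hX
    convert h2 using 1
    have e : N = lft α η * rgt α (star z) - lft α z * rgt α (star η) + lft α z * (t • (1 : Matrix α α F)) *
        rgt α (star z) := by
      have := root_el (α := α) z η t
      rw [el, lft_conjTranspose, ← hN, add_sub_assoc, add_assoc] at this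
      exact add_left_cancel this
    rw [e, el, mul_smul, ← hhh, conjTranspose_mul, conjTranspose_mul, conjTranspose_conjTranspose, lft_conjTranspose]
    simp only [Matrix.mul_add, Matrix.add_mul, Matrix.mul_sub, Matrix.sub_mul, Matrix.mul_smul, Matrix.smul_mul,
      Matrix.mul_one]
    simp only [← Matrix.mul_assoc, hh]
    simp only [Matrix.mul_assoc, ← hh']
    abel
  obtain ⟨ξ, hξ⟩ := H.ns
  obtain ⟨c, hc⟩ := hel η hη
  obtain ⟨c', hc'⟩ := hel (ξ • η) (by rw [sp_smul_right, hη, mul_zero])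
  rw [lft_smul, Matrix.mul_smul, Matrix.smul_mul] at hc'
  obtain ⟨u, hu⟩ := H.el_std hgood hz₂0 hz₂ (hA η hη) hξ hc hc'
  refine ⟨(μ / d)⁻¹ • u, ?_⟩
  have hhh' : hᴴ * h = (μ / d) • (1 : Matrix α α F) := by
    have e : ((μ / d)⁻¹ • hᴴ) * h = 1 := mul_eq_one_comm.1 (by
      rw [Matrix.mul_smul, hhh, smul_smul, inv_mul_cancel₀ hμ0, one_smul])
    rw [Matrix.smul_mul] at e
    rw [← e, smul_smul, mul_inv_cancel₀ hμ0, one_smul]
  calc X * lft α η = (μ / d)⁻¹ • (X * lft α η * hᴴ * h) := by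
        rw [Matrix.mul_assoc (X * lft α η), hhh', Matrix.mul_smul, Matrix.mul_one, smul_smul, inv_mul_cancel₀ hμ0,
          one_smul]
    _ = _ := by rw [hu, lft_smul, Matrix.smul_mul]

/-- An element mapping a layer to a layer is a pure tensor. -/
theorem Over.pure_of_layer (hb : b = 3) {z z₂ : Fin b → F} (hz0 : z ≠ 0) (hz : sp z z = 0) (hz₂0 : z₂ ≠ 0)
    (hz₂ : sp z₂ z₂ = 0) {X : Matrix Ix Ix F} (hX : InM M X) {h : Matrix α α F} (hh : X * lft α z = lft α z₂ * h)
    (hdet : IsUnit h.det) : IsPure X := by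
  rcases isEmpty_or_nonempty α with hα | ⟨⟨i⟩⟩
  · exact ⟨1, 1, by ext p; exact isEmptyElim p.1⟩
  have : Nonempty α := ⟨i⟩
  subst hb
  obtain ⟨z', hz', h1, h2⟩ := partner H.ns hz0 hz
  obtain ⟨e, he0, hze, hz'e⟩ := exists_perp3 z z'
  obtain ⟨hee, -⟩ := basis3 hz hz' h1 he0 hze hz'e
  obtain ⟨f, hf⟩ := H.layer_image hgood hz0 hz hz₂0 hz₂ hX hh hdet hze
  have hin : ∀ (u v a c : Fin 3 → F), X * lft α u = lft α a * h → X * lft α v = lft α c * h →
      sp a c • (hᴴ * h) = sp u v • (1 : Matrix α α F) := by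
    intro u v a c hu hv
    have e1 := congrArg₂ (fun P Q : Matrix (α × Fin 3) α F => Pᴴ * Q) hu hv
    simp only [conjTranspose_mul, lft_conjTranspose, Matrix.mul_assoc] at e1
    rw [← Matrix.mul_assoc Xᴴ, H.unit' hX, Matrix.one_mul, rgt_mul_lft, ← Matrix.mul_assoc (rgt α (star a)),
      rgt_mul_lft, Matrix.smul_mul, Matrix.one_mul, Matrix.mul_smul] at e1
    exact e1.symm
  have hff' := hin e e f f hf hf
  have hff : sp f f ≠ 0 := by
    intro h0
    rw [h0, zero_smul, eq_comm, smul_eq_zero] at hff'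
    exact one_ne_zero (hff'.resolve_left hee)
  set μ := sp e e / sp f f with hμdef
  have hμ0 : μ ≠ 0 := div_ne_zero hee hff
  have hμs : star μ = μ := by rw [hμdef, star_div₀, sp_star, sp_star]
  have hhh' : hᴴ * h = μ • (1 : Matrix α α F) := by
    rw [hμdef, div_eq_inv_mul, mul_smul, ← hff', smul_smul, inv_mul_cancel₀ hff, one_smul]
  have hhh : h * hᴴ = μ • (1 : Matrix α α F) := by
    have e1 : h * (μ⁻¹ • hᴴ) = 1 := mul_eq_one_comm.1 (by
      rw [Matrix.smul_mul, hhh', smul_smul, inv_mul_cancel₀ hμ0, one_smul])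
    rw [Matrix.mul_smul] at e1
    rw [← e1, smul_smul, mul_inv_cancel₀ hμ0, one_smul]
  have hz₂f : sp z₂ f = 0 := by
    have e1 := hin z e z₂ f hh hf
    rw [hze, zero_smul, hhh', smul_smul, smul_eq_zero] at e1
    exact (mul_eq_zero.1 (e1.resolve_right one_ne_zero)).resolve_right hμ0
  have hf0 : f ≠ 0 := fun h0 => hff (by rw [h0, sp_zero_left])
  obtain ⟨y, hy, hzy, hfy⟩ : ∃ y, sp y y = 0 ∧ sp z₂ y = 1 ∧ sp f y = 0 := by
    obtain ⟨p, -, hp1, -⟩ := partner H.ns hz₂0 hz₂
    set y₀ := p - (sp f p / sp f f) • f with hy₀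
    have a1 : sp z₂ y₀ = 1 := by rw [hy₀, sp_sub_right, sp_smul_right, hz₂f, hp1, mul_zero, sub_zero]
    have a2 : sp f y₀ = 0 := by rw [hy₀, sp_sub_right, sp_smul_right, div_mul_cancel₀ _ hff, sub_self]
    obtain ⟨t, ht⟩ := exists_trace H.ns (a := -(sp y₀ y₀)) (by rw [star_neg, sp_star])
    refine ⟨y₀ + t • z₂, ?_, ?_, ?_⟩
    · rw [sp_add_left, sp_add_right, sp_add_right, sp_smul_left, sp_smul_left, sp_smul_right, sp_smul_right,
        hz₂, a1, ← sp_star z₂ y₀, a1, star_one]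
      linear_combination ht
    · rw [sp_add_right, sp_smul_right, a1, hz₂, mul_zero, add_zero]
    · rw [sp_add_right, sp_smul_right, a2, sp_zero_comm.1 hz₂f, mul_zero, add_zero]
  have hyf : sp y f = 0 := sp_zero_comm.1 hfy
  have hfz₂ := sp_zero_comm.1 hz₂f
  set Y := X * lft α z' with hY
  set K := rgt α (star y) * Y with hK
  have hY1 : rgt α (star z₂) * Y = μ⁻¹ • h := by
    have e1 : hᴴ * (rgt α (star z₂) * Y) = 1 := by
      rw [← Matrix.mul_assoc, ← lft_conjTranspose, ← conjTranspose_mul, ← hh, conjTranspose_mul, lft_conjTranspose,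
        hY, Matrix.mul_assoc, ← Matrix.mul_assoc Xᴴ, H.unit' hX, Matrix.one_mul, rgt_mul_lft,
        show star z ⬝ᵥ z' = 1 from h1, one_smul]
    have := congrArg (h * ·) e1
    rw [← Matrix.mul_assoc, hhh, Matrix.smul_mul, Matrix.one_mul, Matrix.mul_one] at this
    calc rgt α (star z₂) * Y = μ⁻¹ • (μ • (rgt α (star z₂) * Y)) := by
          rw [smul_smul, inv_mul_cancel₀ hμ0, one_smul]
      _ = _ := by rw [this]
  have hY2 : rgt α (star f) * Y = 0 := by
    have e1 : hᴴ * (rgt α (star f) * Y) = 0 := by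
      rw [← Matrix.mul_assoc, ← lft_conjTranspose, ← conjTranspose_mul, ← hf, conjTranspose_mul, lft_conjTranspose,
        hY, Matrix.mul_assoc, ← Matrix.mul_assoc Xᴴ, H.unit' hX, Matrix.one_mul, rgt_mul_lft,
        show star e ⬝ᵥ z' = 0 from sp_zero_comm.1 hz'e, zero_smul]
    have := congrArg (h * ·) e1
    rwa [← Matrix.mul_assoc, hhh, Matrix.smul_mul, Matrix.one_mul, Matrix.mul_zero, smul_eq_zero_iff_right hμ0] at this
  have hYdec : Y = lft α z₂ * K + lft α y * (μ⁻¹ • h) := by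
    conv_lhs => rw [← Matrix.one_mul Y, ← resolve (α := α) hz₂ hy hzy hf0 hz₂f hyf]
    rw [Matrix.add_mul, Matrix.add_mul, Matrix.smul_mul, Matrix.mul_assoc, Matrix.mul_assoc, Matrix.mul_assoc,
      hY1, hY2, Matrix.mul_zero, smul_zero, add_zero, hK]
  set k : Matrix (Fin 3) (Fin 3) F :=
    vecMulVec z₂ (star z') + μ⁻¹ • vecMulVec y (star z) + (sp e e)⁻¹ • vecMulVec f (star e) with hk
  have hXdec : X = h ⊗ₖ k + K ⊗ₖ vecMulVec z₂ (star z) := by
    conv_lhs => rw [← Matrix.mul_one X, ← resolve (α := α) hz hz' h1 he0 hze hz'e]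
    simp only [Matrix.mul_add, Matrix.mul_smul, ← Matrix.mul_assoc, hh, ← hY, hYdec, hf, Matrix.add_mul,
      Matrix.smul_mul, lft_mid_rgt, hk, kronecker_add, kronecker_smul]
    abel
  have hkk : k * kᴴ = μ⁻¹ • (1 : Matrix (Fin 3) (Fin 3) F) := by
    rw [← (basis3 hz₂ hy hzy hf0 hz₂f hyf).2]
    simp only [hk, conjTranspose_add, conjTranspose_smul, vmv_conjTranspose, Matrix.add_mul, Matrix.mul_add,
      Matrix.smul_mul, Matrix.mul_smul, vmv_mul, hz, hz', h1, h2, hze, hz'e, sp_zero_comm.1 hze,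
      sp_zero_comm.1 hz'e, star_inv₀, star_div₀, sp_star, zero_smul, one_smul, smul_zero, smul_smul, add_zero, zero_add,
      smul_add, hμdef, inv_div]
    match_scalars
    all_goals field_simp
  have hkz : k *ᵥ z = z₂ := by
    simp only [hk, add_mulVec, smul_mulVec, vmv_mulVec, h2, hz, sp_zero_comm.1 hze, one_smul, zero_smul,
      smul_zero, add_zero]
  set P := h ⊗ₖ k with hP
  have hPP : P * Pᴴ = 1 := by
    rw [hP, kron_conjTranspose, ← mul_kronecker_mul, hhh, hkk, smul_kronecker, kronecker_smul, smul_smul,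
      mul_inv_cancel₀ hμ0, one_smul, one_kronecker_one]
  set G := K * hᴴ with hG
  have hZ : X * Pᴴ = 1 + G ⊗ₖ vecMulVec z₂ (star z₂) := by
    have e2 : vecMulVec z₂ (star z) * kᴴ = vecMulVec z₂ (star z₂) := by
      rw [Matrix.vecMulVec_mul, ← Matrix.star_mulVec, hkz]
    rw [hXdec, Matrix.add_mul, hPP, hP, kron_conjTranspose, ← mul_kronecker_mul, e2]
  have hPd : P.det = 1 := by
    have e1 : (X * Pᴴ).det = 1 := by
      rw [hZ, ← lft_mid_rgt, Matrix.mul_assoc, det_one_add_mul_comm, Matrix.mul_assoc, rgt_mul_lft,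
        show star z₂ ⬝ᵥ z₂ = 0 from hz₂, zero_smul, Matrix.mul_zero, add_zero, det_one]
    obtain ⟨x, hx, hxX⟩ := hX
    rw [det_mul, ← hxX, H.det x hx, one_mul, det_conjTranspose] at e1
    simpa using congrArg star e1
  have hPM : InM M P := H.of_pure h k hPP hPd
  obtain ⟨c, hc⟩ := hgood z₂ G hz₂0 hz₂ (hZ ▸ hX.mul (H.inv hPM))
  refine ⟨h, (1 + c • vecMulVec z₂ (star z₂)) * k, ?_⟩
  calc X = X * Pᴴ * P := by rw [Matrix.mul_assoc, mul_eq_one_comm.1 hPP, Matrix.mul_one]
    _ = ((1 : Matrix α α F) ⊗ₖ (1 + c • vecMulVec z₂ (star z₂))) * P := by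
      rw [hZ, hc, smul_kronecker, kronecker_add, one_kronecker_one, kronecker_smul]
    _ = _ := by rw [hP, ← mul_kronecker_mul, Matrix.one_mul]

/-- Contractions of elements that are not pure do not vanish. -/
theorem Over.ct_ne (hb : b = 3) {X : Matrix Ix Ix F} (hX : InM M X) (hnp : ¬ IsPure X) {x₁ z : Fin b → F} (hx0 : x₁ ≠ 0)
    (hx : sp x₁ x₁ = 0) (hz0 : z ≠ 0) (hz : sp z z = 0) : ct α X x₁ z ≠ 0 := by
  intro hzero
  rcases isEmpty_or_nonempty α with hα | ⟨⟨i⟩⟩
  · exact hnp ⟨1, 1, by ext p; exact isEmptyElim p.1⟩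
  have : Nonempty α := ⟨i⟩
  obtain ⟨d, hd0, hd⟩ := exists_skew H.ns
  set K := rgt α (star x₁) * X with hK
  have hKz : K * lft α z = 0 := hzero
  have hXKt : Xᴴ * lft α x₁ = Kᴴ := by rw [hK, conjTranspose_mul, rgt_conjTranspose]
  have hKK : K * Kᴴ = 0 := by
    rw [← hXKt, hK, Matrix.mul_assoc, ← Matrix.mul_assoc X, H.unit hX, Matrix.one_mul, rgt_mul_lft]
    exact (congrArg (· • _) hx).trans (zero_smul _ _)
  have hKinj : ∀ T : Matrix α α F, Kᴴ * T = 0 → T = 0 := fun T hT => by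
    have e := congrArg (X * ·) hT
    rw [← hXKt, ← Matrix.mul_assoc, ← Matrix.mul_assoc, H.unit hX, Matrix.one_mul, Matrix.mul_zero] at e
    exact lft_injective hx0 (e.trans (Matrix.mul_zero _).symm)
  set S := (1 : Matrix Ix Ix F) + d • (Kᴴ * K) with hS
  have hSM : InM M S := by
    have h1 := H.trans (α := α) hx hd
    rw [smul_kronecker, ← lft_mul_rgt] at h1
    have h2 := H.conj h1 (H.inv hX)
    convert h2 using 1
    rw [hS, ← hXKt, hK, conjTranspose_conjTranspose, Matrix.mul_smul, Matrix.smul_mul]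
    simp only [Matrix.mul_assoc]
  have hSz : S * lft α z = lft α z * (1 : Matrix α α F) := by
    rw [hS, Matrix.add_mul, Matrix.one_mul, Matrix.mul_one, Matrix.smul_mul, Matrix.mul_assoc, hKz,
      Matrix.mul_zero, smul_zero, add_zero]
  have hkey : ∀ η η' : Fin b → F, sp z η = 0 → ∃ c : F, (K * lft α η')ᴴ * (K * lft α η) = c • (1 : Matrix α α F) := by
    intro η η' hη
    obtain ⟨u, hu⟩ := H.layer_image hgood hz0 hz hz0 hz hSM hSz (by simp) hη
    refine ⟨(sp η' u - sp η' η) / d, ?_⟩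
    have e := congrArg (rgt α (star η') * ·) hu
    simp only [Matrix.mul_one, hS, Matrix.add_mul, Matrix.one_mul, Matrix.mul_add, Matrix.smul_mul,
      Matrix.mul_smul, rgt_mul_lft] at e
    rw [conjTranspose_mul, lft_conjTranspose]
    simp only [Matrix.mul_assoc] at e ⊢
    rw [div_eq_inv_mul, mul_smul, sub_smul]
    change _ = d⁻¹ • ((star η' ⬝ᵥ u) • (1 : Matrix α α F) - (star η' ⬝ᵥ η) • 1)
    rw [← e, add_sub_cancel_left, smul_smul, inv_mul_cancel₀ hd0, one_smul]
  obtain ⟨L₀, hL⟩ : ∃ L₀ : Matrix α α F, ∀ v : Fin b → F, ∃ c : F, K * lft α v = c • L₀ := by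
    obtain ⟨z', hz', h1, h2⟩ := partner H.ns hz0 hz
    by_cases hall : ∀ η, sp z η = 0 → K * lft α η = 0
    · refine ⟨K * lft α z', fun v => ⟨sp z v, ?_⟩⟩
      have := hall (v - sp z v • z') (by rw [sp_sub_right, sp_smul_right, h1]; ring)
      rw [sub_eq_add_neg, ← neg_smul, lft_add, lft_smul, Matrix.mul_add, Matrix.mul_smul, neg_smul,
        add_neg_eq_zero] at this
      exact this
    push Not at hall
    obtain ⟨η, hη, hη0⟩ := hall
    have hinv : IsUnit (K * lft α η).det := by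
      obtain ⟨k, hk⟩ : ∃ k : Fin b, rgt α (star (Pi.single k (1 : F))) * (Kᴴ * (K * lft α η)) ≠ 0 := by
        by_contra hc
        push Not at hc
        refine hη0 (hKinj _ ?_)
        ext ⟨j, k⟩ l
        have := congrFun (congrFun (hc k) j) l
        rwa [show star (Pi.single k (1 : F) : Fin b → F) = Pi.single k 1 by
          funext x; by_cases hx : x = k <;> simp [hx, Pi.single_eq_of_ne], rgt_single_mul] at this
      obtain ⟨c, hc⟩ := hkey η (Pi.single k 1) hη
      rw [conjTranspose_mul, lft_conjTranspose, Matrix.mul_assoc] at hc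
      have hc0 : c ≠ 0 := fun h0 => hk (by rw [hc, h0, zero_smul])
      rw [← Matrix.mul_assoc] at hc
      have := congrArg Matrix.det hc
      rw [det_mul, det_smul, det_one, mul_one] at this
      exact IsUnit.mk0 _ (right_ne_zero_of_mul (this ▸ pow_ne_zero _ hc0))
    refine ⟨((K * lft α η)ᴴ)⁻¹, fun v => ?_⟩
    obtain ⟨c, hc⟩ := hkey η v hη
    refine ⟨star c, ?_⟩
    have e := congrArg Matrix.conjTranspose hc
    rw [conjTranspose_mul, conjTranspose_conjTranspose, conjTranspose_smul, conjTranspose_one] at e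
    have hu : IsUnit ((K * lft α η)ᴴ).det := by rw [det_conjTranspose]; exact hinv.star
    have := congrArg (((K * lft α η)ᴴ)⁻¹ * ·) e
    rwa [← Matrix.mul_assoc, Matrix.nonsing_inv_mul _ hu, Matrix.one_mul, Matrix.mul_smul, Matrix.mul_one] at this
  have hL0 : IsUnit L₀.det := by
    rw [isUnit_iff_ne_zero]
    intro hdet
    obtain ⟨a, ha, haL⟩ := (Matrix.exists_vecMul_eq_zero_iff (M := L₀)).2 hdet
    have haK : a ᵥ* K = 0 := by
      funext ⟨j, k⟩
      obtain ⟨c, hc⟩ := hL (Pi.single k 1)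
      have : a ᵥ* (K * lft α (Pi.single k (1 : F))) = 0 := by rw [hc, vecMul_smul, haL, smul_zero]
      have := congrFun this j
      simpa [vecMul, dotProduct, mul_lft_single] using this
    obtain ⟨x', hx', e1, e2⟩ := partner H.ns hx0 hx
    have := congrArg (· ᵥ* (Xᴴ * lft α x')) haK
    simp only [vecMul_vecMul, zero_vecMul] at this
    rw [hK, Matrix.mul_assoc, ← Matrix.mul_assoc X, H.unit hX, Matrix.one_mul, rgt_mul_lft,
      show star x₁ ⬝ᵥ x' = 1 from e1, one_smul, vecMul_one] at this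
    exact ha this
  obtain ⟨ψ, hψ⟩ := eq_rgt (L₀⁻¹ * K) fun v => by
    obtain ⟨c, hc⟩ := hL v
    exact ⟨c, by rw [Matrix.mul_assoc, hc, Matrix.mul_smul, Matrix.nonsing_inv_mul _ hL0]⟩
  have hKψ : K = L₀ * rgt α ψ := by rw [← hψ, ← Matrix.mul_assoc, Matrix.mul_nonsing_inv _ hL0, Matrix.one_mul]
  have hlay : Xᴴ * lft α x₁ = lft α (star ψ) * L₀ᴴ := by
    rw [hXKt, hKψ, conjTranspose_mul, ← rgt_conjTranspose, star_star]
  have hdetL : IsUnit L₀ᴴ.det := by rw [det_conjTranspose]; exact hL0.star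
  have hψ0 : star ψ ≠ 0 := fun h0 => by
    rw [h0, lft_zero, Matrix.zero_mul] at hlay
    have := congrArg (X * ·) hlay
    rw [← Matrix.mul_assoc, H.unit hX, Matrix.one_mul, Matrix.mul_zero] at this
    obtain ⟨k, hk⟩ := Function.ne_iff.1 hx0
    exact hk (by simpa [lft_apply] using congrFun (congrFun this (i, k)) i)
  have hψψ : sp (star ψ) (star ψ) = 0 := by
    by_contra hne
    have e := hKK
    rw [hKψ, conjTranspose_mul, Matrix.mul_assoc, ← Matrix.mul_assoc (rgt α ψ),
      show (rgt α ψ)ᴴ = lft α (star ψ) by rw [← rgt_conjTranspose, star_star],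
      rgt_mul_lft, Matrix.smul_mul, Matrix.one_mul, Matrix.mul_smul] at e
    have e2 := (smul_eq_zero.1 e).resolve_left (by simpa [sp] using hne)
    have := congrArg Matrix.det e2
    rw [det_mul, det_zero] at this
    exact (hL0.mul hdetL).ne_zero this
  obtain ⟨g, k, hgk⟩ := H.pure_of_layer hgood hb hx0 hx hψ0 hψψ (H.inv hX) hlay hdetL
  exact hnp ⟨gᴴ, kᴴ, by rw [← kron_conjTranspose, ← hgk, conjTranspose_conjTranspose]⟩

end Cfsg.Agent.H78.Tensor23
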