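import Cfsg.Agent.H78.Tensor23.Perturb

/-!
An element outside the stabiliser leads to one with a singular contraction along isotropic vectors.
-/

set_option autoImplicit false
set_option linter.unusedSectionVars false

namespace Cfsg.Agent.H78.Tensor23

open Matrix H99.TensorU
open H99.Tensor hiding Good Over
open scoped Kronecker

variable {F : Type*} [Field F] [StarRing F] [Finite F]

local notation "I₆" => Fin 2 × Fin 3

variable {M : Subgroup (GL (Fin 2 × Fin 3) F)} (H : Over M) (hgood : Good M)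
include H hgood

/-- Two layers that are not orthogonal and are mapped to layers make the element pure. -/
theorem Over.two_layers {X : Matrix I₆ I₆ F} (hX : InM M X) {e₀ e₁ f₀ f₁ : Fin 3 → F}
    {L₀ L₁ : Matrix (Fin 2) (Fin 2) F} (hf : sp f₀ f₀ ≠ 0) (hf₁ : f₁ ≠ 0) (hL₀ : IsUnit L₀.det)
    (hL₁ : IsUnit L₁.det) (h0 : X * lft (Fin 2) e₀ = lft (Fin 2) f₀ * L₀)
    (h1 : X * lft (Fin 2) e₁ = lft (Fin 2) f₁ * L₁) (h01 : sp f₀ f₁ ≠ 0) (hne : ∀ c : F, f₁ ≠ c • f₀) :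
    IsPure X := by
  have hin : ∀ (u v a c : Fin 3 → F) (L L' : Matrix (Fin 2) (Fin 2) F), X * lft (Fin 2) u = lft (Fin 2) a * L →
      X * lft (Fin 2) v = lft (Fin 2) c * L' →
      sp a c • (Lᴴ * L') = sp u v • (1 : Matrix (Fin 2) (Fin 2) F) := by
    intro u v a c L L' hu hv
    have e1 := congrArg₂ (fun P Q : Matrix I₆ (Fin 2) F => Pᴴ * Q) hu hv
    simp only [conjTranspose_mul, lft_conjTranspose, Matrix.mul_assoc] at e1
    rw [← Matrix.mul_assoc Xᴴ, H.unit' hX, Matrix.one_mul, rgt_mul_lft,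
      ← Matrix.mul_assoc (rgt (Fin 2) (star a)), rgt_mul_lft, Matrix.smul_mul, Matrix.one_mul,
      Matrix.mul_smul] at e1
    exact e1.symm
  have hL₀0 : L₀ ≠ 0 := fun h => by
    rw [h, Matrix.det_zero, isUnit_zero_iff] at hL₀
    exact zero_ne_one hL₀
  have hLL : L₀ᴴ * L₀ = (sp e₀ e₀ / sp f₀ f₀) • (1 : Matrix (Fin 2) (Fin 2) F) := by
    rw [div_eq_inv_mul, mul_smul, ← hin _ _ _ _ _ _ h0 h0, smul_smul, inv_mul_cancel₀ hf, one_smul]
  have hu : IsUnit L₀ᴴ.det := by rw [det_conjTranspose]; exact hL₀.star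
  have hs : sp e₀ e₀ / sp f₀ f₀ ≠ 0 := fun h => by
    rw [h, zero_smul] at hLL
    have := congrArg Matrix.det hLL
    rw [det_mul, det_zero] at this
    exact (hu.mul hL₀).ne_zero this
  have hd : IsUnit (L₀ᴴ).det := hu
  set c := (sp e₀ e₁ / sp f₀ f₁) / (sp e₀ e₀ / sp f₀ f₀) with hc
  have hLc : L₁ = c • L₀ := by
    have e : L₀ᴴ * L₁ = L₀ᴴ * (c • L₀) := by
      rw [Matrix.mul_smul, hLL, smul_smul, hc, div_mul_cancel₀ _ hs, div_eq_inv_mul (sp e₀ e₁), mul_smul,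
        ← hin _ _ _ _ _ _ h0 h1, smul_smul, inv_mul_cancel₀ h01, one_smul]
    have := congrArg ((L₀ᴴ)⁻¹ * ·) e
    simpa only [← Matrix.mul_assoc, Matrix.nonsing_inv_mul _ hd, Matrix.one_mul] using this
  have h1' : X * lft (Fin 2) e₁ = lft (Fin 2) (c • f₁) * L₀ := by
    rw [h1, hLc, lft_smul, Matrix.smul_mul, Matrix.mul_smul]
  have hc0 : c ≠ 0 := fun h => by
    rw [hLc, h, zero_smul, Matrix.det_zero, isUnit_zero_iff] at hL₁
    exact zero_ne_one hL₁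
  let U := Submodule.span F (Set.range ![e₀, e₁])
  have hli : LinearIndependent F ![e₀, e₁] := by
    rw [LinearIndependent.pair_iff]
    intro s t hst
    have e : lft (Fin 2) (s • f₀ + t • (c • f₁)) * L₀ = 0 := by
      rw [lft_add, Matrix.add_mul, lft_smul, lft_smul (c := t), Matrix.smul_mul, Matrix.smul_mul, ← h0, ← h1',
        ← Matrix.mul_smul, ← Matrix.mul_smul, ← Matrix.mul_add, ← lft_smul, ← lft_smul, ← lft_add, hst, lft_zero,
        Matrix.mul_zero]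
    have e' := congrArg (· * L₀⁻¹) e
    simp only [Matrix.mul_nonsing_inv_cancel_right _ _ hL₀, Matrix.zero_mul] at e'
    have e'' : s • f₀ + t • (c • f₁) = 0 := funext fun k => by
      simpa [lft_apply] using congrFun (congrFun e' (0, k)) 0
    have ht : t = 0 := by
      by_contra ht
      refine hne (-(s / (t * c))) ?_
      rw [smul_smul] at e''
      have := congrArg ((t * c)⁻¹ • ·) e''
      simp only [smul_add, smul_smul, inv_mul_cancel₀ (mul_ne_zero ht hc0), one_smul, smul_zero] at this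
      rw [div_eq_inv_mul, neg_smul]
      exact eq_neg_of_add_eq_zero_right this
    rw [ht, zero_smul, add_zero] at e''
    exact ⟨(smul_eq_zero.1 e'').resolve_right (fun h => hf (by rw [h, sp_zero_left])), ht⟩
  have hU : 2 ≤ Module.finrank F U := le_of_eq (by rw [finrank_span_eq_card hli, Fintype.card_fin])
  obtain ⟨x, hx, hx0, hxx⟩ := exists_iso_in H.ns U hU
  obtain ⟨a, hxe⟩ := (Submodule.mem_span_range_iff_exists_fun F).1 hx
  rw [Fin.sum_univ_two] at hxe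
  simp only [Matrix.cons_val_zero, Matrix.cons_val_one] at hxe
  set x' := a 0 • f₀ + a 1 • (c • f₁) with hx'
  have hX' : X * lft (Fin 2) x = lft (Fin 2) x' * L₀ := by
    rw [← hxe, hx', lft_add, lft_add, Matrix.mul_add, Matrix.add_mul, lft_smul, lft_smul, lft_smul (c := a 0),
      lft_smul (c := a 1), Matrix.mul_smul, Matrix.mul_smul, h0, h1', Matrix.smul_mul, Matrix.smul_mul]
  have hx'x' : sp x' x' = 0 := by
    have e := hin _ _ _ _ _ _ hX' hX'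
    rw [hxx, zero_smul, hLL, smul_smul, smul_eq_zero] at e
    exact (mul_eq_zero.1 (e.resolve_right one_ne_zero)).resolve_right hs
  have hx'0 : x' ≠ 0 := fun h => by
    rw [h, lft_zero, Matrix.zero_mul] at hX'
    exact one_ne_zero (H.col_inj hgood hX hx0 1 (by rw [hX', Matrix.zero_mul]))
  exact H.pure_of_layer hgood rfl hx0 hxx hx'0 hx'x' hX hX' hL₀

/-- Either a singular contraction or a layer orthogonal to the given vector. -/
theorem Over.singular_or_layer (hr : ∃ r : F, star r = r ∧ r ≠ 0 ∧ r ≠ 1) {X : Matrix I₆ I₆ F}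
    (hX : InM M X) (hnp : ¬ IsPure X) {w : Fin 3 → F} (hw0 : w ≠ 0) (hw : sp w w = 0) :
    (∃ (Y : Matrix I₆ I₆ F) (u v : Fin 3 → F), InM M Y ∧ ¬ IsPure Y ∧ u ≠ 0 ∧ sp u u = 0 ∧ v ≠ 0 ∧ sp v v = 0 ∧
      (ct (Fin 2) Y u v).det = 0) ∨
    ∃ (e f : Fin 3 → F) (L : Matrix (Fin 2) (Fin 2) F), sp f f ≠ 0 ∧ IsUnit L.det ∧
      X * lft (Fin 2) e = lft (Fin 2) f * L ∧ sp w f = 0 := by
  obtain ⟨x, hx0, hdet⟩ := exists_det_zero fun i => ct (Fin 2) X w (Pi.single i 1)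
  set e : Fin 3 → F := ∑ i, x i • Pi.single i 1 with he
  have hex : e = x := by
    funext k
    simp [he, Finset.sum_apply, Pi.single_apply]
  have hsum : ct (Fin 2) X w e = ∑ i, x i • ct (Fin 2) X w (Pi.single i 1) := by
    let f : (Fin 3 → F) →ₗ[F] Matrix (Fin 2) (Fin 2) F :=
      { toFun := fun u => ct (Fin 2) X w u
        map_add' := fun u u' => ct_add_right _ _ _ _
        map_smul' := fun a u => ct_smul_right _ _ _ _ }
    change f e = _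
    rw [he, map_sum]
    exact Finset.sum_congr rfl fun i _ => f.map_smul _ _
  rw [← hsum] at hdet
  by_cases hee : sp e e = 0
  · exact Or.inl ⟨X, w, e, hX, hnp, hw0, hw, hex ▸ hx0, hee, hdet⟩
  rcases H.refl_or_layer hgood hr hX hnp hw hee with ⟨R, c, hR, hRnp, hRww⟩ | ⟨f, L, hff, hL, hXe⟩
  · refine Or.inl ⟨R, w, w, hR, hRnp, hw0, hw, hw0, hw, ?_⟩
    rw [hRww, det_smul, det_mul, hdet, zero_mul, mul_zero]
  · refine Or.inr ⟨e, f, L, hff, hL, hXe, ?_⟩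
    rw [ct, Matrix.mul_assoc, hXe, ← Matrix.mul_assoc, rgt_mul_lft, Matrix.smul_mul, Matrix.one_mul, det_smul,
      mul_eq_zero] at hdet
    exact (pow_eq_zero_iff (by simp)).1 (hdet.resolve_right hL.ne_zero)

/-- A singular contraction exists. -/
theorem Over.exists_singular (hr : ∃ r : F, star r = r ∧ r ≠ 0 ∧ r ≠ 1) {X : Matrix I₆ I₆ F}
    (hX : InM M X) (hnp : ¬ IsPure X) :
    ∃ (Y : Matrix I₆ I₆ F) (u v : Fin 3 → F), InM M Y ∧ ¬ IsPure Y ∧ u ≠ 0 ∧ sp u u = 0 ∧ v ≠ 0 ∧ sp v v = 0 ∧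
      (ct (Fin 2) Y u v).det = 0 := by
  by_contra hc
  have step : ∀ w : Fin 3 → F, w ≠ 0 → sp w w = 0 → ∃ (e f : Fin 3 → F) (L : Matrix (Fin 2) (Fin 2) F),
      sp f f ≠ 0 ∧ IsUnit L.det ∧ X * lft (Fin 2) e = lft (Fin 2) f * L ∧ sp w f = 0 := fun w hw0 hw =>
    (H.singular_or_layer hgood hr hX hnp hw0 hw).resolve_left hc
  obtain ⟨w₀, hw₀0, hw₀⟩ := H.exists_iso
  obtain ⟨e₀, f₀, L₀, hf₀, hL₀, h₀, -⟩ := step w₀ hw₀0 hw₀
  have hf₀0 : f₀ ≠ 0 := fun h => hf₀ (by rw [h, sp_zero_left])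
  obtain ⟨w₁, hw₁, hfw₁⟩ := exists_iso_not_perp H.ns (by simp) hf₀0
  obtain ⟨e₁, f₁, L₁, hf₁, hL₁, h₁, hwf₁⟩ := step w₁ (fun h => hfw₁ (by rw [h, sp_zero_right])) hw₁
  have hf₁0 : f₁ ≠ 0 := fun h => hf₁ (by rw [h, sp_zero_left])
  by_cases h01 : sp f₀ f₁ = 0
  swap
  · refine hnp (H.two_layers hgood hX hf₀ hf₁0 hL₀ hL₁ h₀ h₁ h01 fun c hcf => ?_)
    rw [hcf, sp_smul_right, mul_eq_zero] at hwf₁
    rcases hwf₁ with hc0 | hw
    · exact hf₁0 (by rw [hcf, hc0, zero_smul])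
    · exact hfw₁ (sp_zero_comm.1 hw)
  obtain ⟨f₂, hf₂0, h02, h12⟩ := exists_perp3 f₀ f₁
  obtain ⟨hf₂, hmem⟩ := orth3 hf₀ hf₁ h01 hf₂0 h02 h12
  obtain ⟨r, hr, hr0, hr1⟩ := hr
  obtain ⟨a, ha⟩ := exists_norm H.ns (a := 1 / sp f₀ f₀) (by rw [star_div₀, star_one, sp_star])
  obtain ⟨c₁, hc₁⟩ := exists_norm H.ns (a := -r / sp f₁ f₁) (by rw [star_div₀, star_neg, hr, sp_star])
  obtain ⟨c₂, hc₂⟩ := exists_norm H.ns (a := (r - 1) / sp f₂ f₂) (by rw [star_div₀, star_sub, hr, star_one, sp_star])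
  have a0 : a * star a ≠ 0 := ha ▸ div_ne_zero one_ne_zero hf₀
  have a1 : c₁ * star c₁ ≠ 0 := hc₁ ▸ div_ne_zero (neg_ne_zero.2 hr0) hf₁
  have a2 : c₂ * star c₂ ≠ 0 := hc₂ ▸ div_ne_zero (sub_ne_zero.2 hr1) hf₂
  field_simp at ha hc₁ hc₂
  set w₂ := a • f₀ + c₁ • f₁ + c₂ • f₂ with hw₂def
  have h10 := sp_zero_comm.1 h01
  have h20 := sp_zero_comm.1 h02
  have h21 := sp_zero_comm.1 h12
  have hw₂ : sp w₂ w₂ = 0 := by
    simp only [hw₂def, sp_add_left, sp_add_right, sp_smul_left, sp_smul_right, h01, h10, h02, h20, h12, h21]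
    linear_combination ha + hc₁ + hc₂
  have p0 : sp w₂ f₀ = star a * sp f₀ f₀ := by
    simp only [hw₂def, sp_add_left, sp_smul_left, h10, h20]; ring
  have p1 : sp w₂ f₁ = star c₁ * sp f₁ f₁ := by
    simp only [hw₂def, sp_add_left, sp_smul_left, h01, h21]; ring
  have p2 : sp w₂ f₂ = star c₂ * sp f₂ f₂ := by
    simp only [hw₂def, sp_add_left, sp_smul_left, h02, h12]; ring
  have q0 : sp w₂ f₀ ≠ 0 := p0 ▸ mul_ne_zero (right_ne_zero_of_mul a0) hf₀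
  have q1 : sp w₂ f₁ ≠ 0 := p1 ▸ mul_ne_zero (right_ne_zero_of_mul a1) hf₁
  have q2 : sp w₂ f₂ ≠ 0 := p2 ▸ mul_ne_zero (right_ne_zero_of_mul a2) hf₂
  obtain ⟨e₃, f₃, L₃, hf₃, hL₃, h₃, hwf₃⟩ := step w₂ (fun h => q0 (by rw [h, sp_zero_left])) hw₂
  have hf₃0 : f₃ ≠ 0 := fun h => hf₃ (by rw [h, sp_zero_left])
  have hne : ∀ (f : Fin 3 → F), sp w₂ f ≠ 0 → ∀ c : F, f₃ ≠ c • f := by
    intro f hf c hcf
    rw [hcf, sp_smul_right, mul_eq_zero] at hwf₃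
    rcases hwf₃ with hc0 | hw
    · exact hf₃0 (by rw [hcf, hc0, zero_smul])
    · exact hf hw
  by_cases h03 : sp f₀ f₃ = 0
  swap
  · exact hnp (H.two_layers hgood hX hf₀ hf₃0 hL₀ hL₃ h₀ h₃ h03 (hne f₀ q0))
  by_cases h13 : sp f₁ f₃ = 0
  swap
  · exact hnp (H.two_layers hgood hX hf₁ hf₃0 hL₁ hL₃ h₁ h₃ h13 (hne f₁ q1))
  obtain ⟨c, hc'⟩ := hmem f₃ h03 h13
  exact hne f₂ q2 c hc'

end Cfsg.Agent.H78.Tensor23
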